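import Mathlib
import Cfsg.Agent.Lib.Classical.Symp.InvolChar2
import Cfsg.Agent.Lib.Classical.Symp.InvolChar2Mat
import Cfsg.Agent.Lib.Classical.Symp.IsoCount

/-!
# Centralizers of involutions of symplectic groups in characteristic two

For `N = t - 1` self-adjoint with square zero and `U = Im N`, the centralizer of `N` in the
isometry group is the preimage under the restriction map `Stab(U) → GL(U)` of the isometry group of
the form `g(Nx, u) = B(x, u)` on `U`.
-/

set_option autoImplicit false

namespace Cfsg.Agent.Lib.Classical.InvCent.Core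

open Module
open Cfsg.Agent.Lib.Classical.Symp.AltForm Cfsg.Agent.Lib.Classical.Symp.InvolChar2
open Cfsg.Agent.Lib.Classical.Symp.SympBasis

theorem card_comap_mul {A Q : Type*} [Group A] [Group Q] [Finite A] [Finite Q] (φ : A →* Q)
    (hφ : Function.Surjective φ) (I : Subgroup Q) :
    Nat.card (I.comap φ) * Nat.card Q = Nat.card A * Nat.card I := by
  have h1 := Subgroup.card_mul_index (I.comap φ)
  have h2 := Subgroup.card_mul_index I
  rw [Subgroup.index_comap_of_surjective I hφ] at h1
  rw [← h1, ← h2]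
  ring

variable {F V : Type*} [Field F] [AddCommGroup V] [Module F V]
variable {B : LinearMap.BilinForm F V}

theorem map_eq_of_stab {W : Submodule F V} (g : stabSub B W) :
    W.map ((g.1 : V ≃ₗ[F] V) : V →ₗ[F] V) = W := by
  ext x
  constructor
  · rintro ⟨y, hy, rfl⟩
    exact (mem_stabSub.mp g.2 y).1 hy
  · intro hx
    refine ⟨(g.1 : V ≃ₗ[F] V).symm x, ?_, by simp⟩
    rw [SetLike.mem_coe, mem_stabSub.mp g.2]
    simpa using hx

/-- Restriction to a stable subspace. -/
noncomputable def resHom (B : LinearMap.BilinForm F V) (W : Submodule F V) : stabSub B W →* (W ≃ₗ[F] W) where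
  toFun g := LinearEquiv.ofSubmodules (g.1 : V ≃ₗ[F] V) W W (map_eq_of_stab g)
  map_one' := by
    ext x
    rfl
  map_mul' a b := by
    ext x
    rfl

@[simp] theorem coe_resHom {W : Submodule F V} (g : stabSub B W) (u : W) :
    ((resHom B W g u : W) : V) = (g.1 : V ≃ₗ[F] V) u := rfl

/-- Surjectivity of the restriction for a totally isotropic subspace. -/
theorem resHom_surjective (hB : B.Nondegenerate) (hA : B.IsAlt) {W : Submodule F V}
    (hW : ∀ u ∈ W, ∀ v ∈ W, B u v = 0) [FiniteDimensional F V] :
    Function.Surjective (resHom B W) := by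
  intro h
  obtain ⟨g, hg, hgL⟩ := Cfsg.Agent.Lib.Classical.Symp.SpGL.witt_of_injective B hB hA W.subtype
    (W.subtype.comp h.toLinearMap) W.injective_subtype
    (W.injective_subtype.comp h.injective) (by
      intro a b
      simp only [LinearMap.comp_apply, Submodule.subtype_apply, LinearEquiv.coe_coe]
      rw [hW _ (h a).2 _ (h b).2, hW _ a.2 _ b.2])
  have hL : ∀ a : W, g (a : V) = (h a : V) := fun a => by simpa using hgL a
  refine ⟨⟨⟨g, hg⟩, ?_⟩, ?_⟩
  · rw [mem_stabSub]
    intro x
    constructor
    · intro hx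
      change g x ∈ W
      rw [hL ⟨x, hx⟩]
      exact (h _).2
    · intro hx
      have hx' : g x ∈ W := hx
      have e := hL (h.symm ⟨g x, hx'⟩)
      simp only [LinearEquiv.apply_symm_apply] at e
      have := g.injective e
      rw [← this]
      exact (h.symm ⟨g x, hx'⟩).2
  · ext a
    exact hL a

variable {N : V →ₗ[F] V}

/-- The centralizer of `N`. -/
def cen (B : LinearMap.BilinForm F V) (N : V →ₗ[F] V) : Subgroup (IsomGroup B) where
  carrier := {g | ∀ x, (g : V ≃ₗ[F] V) (N x) = N ((g : V ≃ₗ[F] V) x)}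
  mul_mem' {a b} ha hb := by
    intro x
    change (a : V ≃ₗ[F] V) ((b : V ≃ₗ[F] V) (N x)) = N ((a : V ≃ₗ[F] V) ((b : V ≃ₗ[F] V) x))
    rw [hb, ha]
  one_mem' := fun x => rfl
  inv_mem' {a} ha := by
    intro x
    have h := ha (((a⁻¹ : IsomGroup B) : V ≃ₗ[F] V) x)
    have e1 : ∀ z, (a : V ≃ₗ[F] V) (((a⁻¹ : IsomGroup B) : V ≃ₗ[F] V) z) = z := fun z => by
      change ((a * a⁻¹ : IsomGroup B) : V ≃ₗ[F] V) z = z
      simp
    rw [e1] at h
    apply (a : V ≃ₗ[F] V).injective
    rw [e1, h]

theorem mem_cen {g : IsomGroup B} :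
    g ∈ cen B N ↔ ∀ x, (g : V ≃ₗ[F] V) (N x) = N ((g : V ≃ₗ[F] V) x) := Iff.rfl

theorem cen_le_stab {g : IsomGroup B} (hg : g ∈ cen B N) : g ∈ stabSub B (LinearMap.range N) := by
  rw [mem_stabSub]
  intro x
  constructor
  · rintro ⟨y, rfl⟩
    exact ⟨_, (hg y).symm⟩
  · rintro ⟨y, hy⟩
    refine ⟨((g⁻¹ : IsomGroup B) : V ≃ₗ[F] V) y, ?_⟩
    have h := (inv_mem hg) y
    rw [← h, hy]
    change ((g⁻¹ * g : IsomGroup B) : V ≃ₗ[F] V) x = x
    simp

section Form

variable {G : LinearMap.BilinForm F (LinearMap.range N)}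

theorem mem_comap_iff (hB : B.Nondegenerate) (hN : IsSqZeroAdj B N)
    (hG : ∀ (x : V) (u : LinearMap.range N), G (N.rangeRestrict x) u = B x u)
    (a : stabSub B (LinearMap.range N)) :
    resHom B (LinearMap.range N) a ∈ IsomGroup G ↔ a.1 ∈ cen B N := by
  constructor
  · intro h x
    have key : N.rangeRestrict ((a.1 : V ≃ₗ[F] V) x) = resHom B _ a (N.rangeRestrict x) := by
      have hsep := form_sep hB.1 hN hG (N.rangeRestrict ((a.1 : V ≃ₗ[F] V) x) - resHom B _ a (N.rangeRestrict x)) ?_
      · exact sub_eq_zero.1 hsep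
      · intro v
        obtain ⟨w, rfl⟩ := (resHom B _ a).surjective v
        rw [map_sub, LinearMap.sub_apply, h, hG, hG, coe_resHom]
        rw [a.1.2 x w, sub_self]
    have := congrArg Subtype.val key
    exact this.symm
  · intro h v u
    obtain ⟨x, rfl⟩ := LinearMap.surjective_rangeRestrict N v
    have key : resHom B _ a (N.rangeRestrict x) = N.rangeRestrict ((a.1 : V ≃ₗ[F] V) x) := by
      apply Subtype.ext
      exact h x
    rw [key, hG, hG, coe_resHom]
    exact a.1.2 x u

/-- The basic counting formula. -/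
theorem card_cen_mul [Finite F] [FiniteDimensional F V] (hB : B.Nondegenerate) (hA : B.IsAlt)
    (hN : IsSqZeroAdj B N)
    (hG : ∀ (x : V) (u : LinearMap.range N), G (N.rangeRestrict x) u = B x u) :
    Nat.card (cen B N) * Nat.card (LinearMap.range N ≃ₗ[F] LinearMap.range N) =
      Nat.card (stabSub B (LinearMap.range N)) * Nat.card (IsomGroup G) := by
  classical
  haveI : Finite V := Module.finite_of_finite F
  haveI : Finite (V ≃ₗ[F] V) := by
    apply Finite.of_injective (fun e : V ≃ₗ[F] V => (e : V → V))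
    intro a b h
    ext x
    exact congrFun h x
  haveI : Finite (LinearMap.range N ≃ₗ[F] LinearMap.range N) := by
    apply Finite.of_injective (fun e : LinearMap.range N ≃ₗ[F] LinearMap.range N => (e : LinearMap.range N → LinearMap.range N))
    intro a b h
    ext x
    exact congrArg Subtype.val (congrFun h x)
  have hW : ∀ u ∈ LinearMap.range N, ∀ v ∈ LinearMap.range N, B u v = 0 := by
    rintro _ ⟨x, rfl⟩ _ ⟨y, rfl⟩
    exact hN.ts x y
  have h1 := card_comap_mul (resHom B (LinearMap.range N)) (resHom_surjective hB hA hW) (IsomGroup G)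
  have h2 : Nat.card (cen B N) = Nat.card ((IsomGroup G).comap (resHom B (LinearMap.range N))) := by
    apply Nat.card_congr
    exact {
      toFun := fun g => ⟨⟨g.1, cen_le_stab g.2⟩, (mem_comap_iff hB hN hG _).2 g.2⟩
      invFun := fun a => ⟨a.1.1, (mem_comap_iff hB hN hG _).1 a.2⟩
      left_inv := fun g => rfl
      right_inv := fun a => rfl }
  rw [h2, h1]

end Form

/-- Isometric forms have isomorphic isometry groups. -/
theorem card_isomGroup_congr {E E' : Type*} [AddCommGroup E] [Module F E] [AddCommGroup E'] [Module F E']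
    {g : LinearMap.BilinForm F E} {g' : LinearMap.BilinForm F E'} (e : E ≃ₗ[F] E')
    (he : ∀ u v, g' (e u) (e v) = g u v) : Nat.card (IsomGroup g) = Nat.card (IsomGroup g') := by
  apply Nat.card_congr
  exact {
    toFun := fun h => ⟨e.symm.trans (h.1.trans e), fun x y => by
      simp only [LinearEquiv.trans_apply]
      rw [he, h.2, ← he]
      simp⟩
    invFun := fun h => ⟨e.trans (h.1.trans e.symm), fun x y => by
      simp only [LinearEquiv.trans_apply]
      rw [← he]
      simp only [LinearEquiv.apply_symm_apply]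
      rw [h.2, he]⟩
    left_inv := fun h => by
      apply Subtype.ext
      ext x
      simp
    right_inv := fun h => by
      apply Subtype.ext
      ext x
      simp }

/-- The number of linear automorphisms of a space of dimension `s`. -/
theorem card_linearEquiv [Fintype F] {E : Type*} [AddCommGroup E] [Module F E] [FiniteDimensional F E] {s : ℕ}
    (hs : finrank F E = s) :
    Nat.card (E ≃ₗ[F] E) = ∏ i : Fin s, (Fintype.card F ^ s - Fintype.card F ^ (i : ℕ)) := by
  classical
  subst hs
  have b := Module.finBasis F E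
  have e1 : (E ≃ₗ[F] E) ≃* GL (Fin (finrank F E)) F :=
    (LinearMap.GeneralLinearGroup.generalLinearEquiv F E).symm.trans
      (Units.mapEquiv (LinearMap.toMatrixAlgEquiv b).toMulEquiv)
  rw [Nat.card_congr e1.toEquiv, Matrix.card_GL_field]

end Cfsg.Agent.Lib.Classical.InvCent.Core
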