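import Mathlib
import Cfsg.Agent.Lib.Classical.InvCent.Core
import Cfsg.Agent.Lib.Classical.Symp.Count

/-!
# Isometry groups of symmetric non-alternating forms in characteristic two

Over a finite field of characteristic two, a nondegenerate symmetric non-alternating form of odd dimension `2k+1`
has the isometry group of a symplectic space of dimension `2k`; in dimension `2k+2` its
isometry group has order `q^(2k+1)` times that.
-/

set_option autoImplicit false

namespace Cfsg.Agent.Lib.Classical.InvCent.Models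

open Module
open Cfsg.Agent.Lib.Classical.Symp.AltForm Cfsg.Agent.Lib.Classical.Symp.InvolChar2
open Cfsg.Agent.Lib.Classical.Symp.Count Cfsg.Agent.Lib.Classical.Symp.Basic
open Cfsg.Agent.Lib.Classical.InvCent.Core

variable {F E : Type*} [Field F] [AddCommGroup E] [Module F E]

section Char2

variable [CharP F 2]

omit [AddCommGroup E] [Module F E] in
theorem sq_inj {a b : F} (h : a ^ 2 = b ^ 2) : a = b := by
  have h2 : (2 : F) = 0 := two_eq_zero' F
  have : (a - b) ^ 2 = 0 := by
    have e : (a - b) ^ 2 = a ^ 2 - b ^ 2 - 2 * (a * b - b ^ 2) := by ring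
    rw [e, h, h2]
    ring
  have := pow_eq_zero_iff (two_ne_zero) |>.1 this
  exact sub_eq_zero.1 this

omit [AddCommGroup E] [Module F E] in
theorem add_self' (a : F) : a + a = 0 := by
  rw [← two_mul, two_eq_zero' F, zero_mul]

omit [AddCommGroup E] [Module F E] in
theorem sub_eq_add' (a b : F) : a - b = a + b := by
  have := add_self' b
  linear_combination -this

/-- The model in odd dimension. -/
noncomputable def modelOdd (J : LinearMap.BilinForm F E) : LinearMap.BilinForm F (F × E) :=
  LinearMap.mk₂ F (fun p p' => p.1 * p'.1 + J p.2 p'.2)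
    (fun a b c => by simp; ring)
    (fun c a b => by simp; ring)
    (fun a b c => by simp; ring)
    (fun c a b => by simp; ring)

omit [CharP F 2] in
@[simp] theorem modelOdd_apply (J : LinearMap.BilinForm F E) (p p' : F × E) :
    modelOdd J p p' = p.1 * p'.1 + J p.2 p'.2 := rfl

omit [CharP F 2] in
theorem modelOdd_symm {J : LinearMap.BilinForm F E} (hS : ∀ x y, J x y = J y x) (p p' : F × E) :
    modelOdd J p p' = modelOdd J p' p := by
  simp only [modelOdd_apply]
  rw [hS]
  ring

omit [CharP F 2] in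
theorem modelOdd_nondeg {J : LinearMap.BilinForm F E} (hJ : J.Nondegenerate) (hS : ∀ x y, J x y = J y x) :
    (modelOdd J).Nondegenerate := by
  have hsep : ∀ x, (∀ y, modelOdd J x y = 0) → x = 0 := by
    rintro ⟨a, x⟩ h
    have h1 := h (1, 0)
    simp only [modelOdd_apply, map_zero, mul_one, add_zero] at h1
    have h2 : x = 0 := hJ.1 x (fun y => by
      have := h (0, y)
      simpa using this)
    rw [h1, h2]
    rfl
  exact ⟨hsep, fun y hy => hsep y fun x => (modelOdd_symm hS y x).trans (hy x)⟩

/-- The isometry group of the model. -/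
theorem card_isom_modelOdd [FiniteDimensional F E] {J : LinearMap.BilinForm F E} (hJ : J.Nondegenerate)
    (hA : J.IsAlt) (hS : ∀ x y, J x y = J y x) :
    Nat.card (IsomGroup (modelOdd J)) = Nat.card (IsomGroup J) := by
  have hnd := modelOdd_nondeg hJ hS
  symm
  apply Nat.card_eq_of_bijective
    (fun h : IsomGroup J => (⟨LinearEquiv.prodCongr (LinearEquiv.refl F F) h.1, fun p p' => by
      obtain ⟨a, x⟩ := p
      obtain ⟨b, y⟩ := p'
      simp [h.2 x y]⟩ : IsomGroup (modelOdd J)))
  constructor
  · intro h h' e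
    apply Subtype.ext
    ext x
    have := congrArg (fun g : IsomGroup (modelOdd J) => (g : (F × E) ≃ₗ[F] (F × E)) (0, x)) e
    simp at this
    rw [this]
  · intro g
    -- the first coordinate is preserved
    have h1 : ∀ p : F × E, ((g : (F × E) ≃ₗ[F] (F × E)) p).1 = p.1 := by
      intro p
      apply sq_inj
      have := g.2 p p
      simp only [modelOdd_apply, hA _, add_zero] at this
      rw [pow_two, pow_two, this]
    have hc : (g : (F × E) ≃ₗ[F] (F × E)) (1, 0) = (1, 0) := by
      have hk : (g : (F × E) ≃ₗ[F] (F × E)) (1, 0) - (1, 0) = 0 := by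
        apply hnd.2
        intro p
        obtain ⟨q, rfl⟩ := (g : (F × E) ≃ₗ[F] (F × E)).surjective p
        rw [map_sub, g.2]
        have := h1 q
        simp [this]
      exact sub_eq_zero.1 hk
    have h0 : ∀ x : E, (g : (F × E) ≃ₗ[F] (F × E)) (0, x) = (0, ((g : (F × E) ≃ₗ[F] (F × E)) (0, x)).2) := by
      intro x
      apply Prod.ext
      · simpa using h1 (0, x)
      · rfl
    let hl : E →ₗ[F] E := (LinearMap.snd F F E).comp (((g : (F × E) ≃ₗ[F] (F × E)) : (F × E) →ₗ[F] (F × E)).comp (LinearMap.inr F F E))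
    have hl_apply : ∀ x, hl x = ((g : (F × E) ≃ₗ[F] (F × E)) (0, x)).2 := fun x => rfl
    have hiso : ∀ x y, J (hl x) (hl y) = J x y := by
      intro x y
      have := g.2 (0, x) (0, y)
      rw [h0 x, h0 y] at this
      simpa [hl_apply] using this
    have hinj : Function.Injective hl := by
      rw [← LinearMap.ker_eq_bot, LinearMap.ker_eq_bot']
      intro x hx
      apply hJ.1
      intro y
      rw [← hiso, hx, map_zero, LinearMap.zero_apply]
    let hh : E ≃ₗ[F] E := LinearEquiv.ofInjectiveEndo hl hinj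
    have hhm : hh ∈ IsomGroup J := fun x y => hiso x y
    refine ⟨⟨hh, hhm⟩, ?_⟩
    apply Subtype.ext
    ext p
    · obtain ⟨a, x⟩ := p
      have e : ((a, x) : F × E) = a • ((1, 0) : F × E) + (0, x) := by
        simp
      rw [e]
      simp only [map_add, map_smul]
      rw [hc]
      have h2 := h1 (0, x)
      simp [h2]
    · obtain ⟨a, x⟩ := p
      have e : ((a, x) : F × E) = a • ((1, 0) : F × E) + (0, x) := by
        simp
      have e2 : (g : (F × E) ≃ₗ[F] (F × E)) (a, x) = a • ((1, 0) : F × E) + (0, hl x) := by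
        conv_lhs => rw [e]
        rw [map_add, map_smul, hc, h0 x]
        rfl
      rw [e2]
      simp [hh, LinearEquiv.prodCongr_apply]

/-- The model in even dimension. -/
noncomputable def modelEven (J : LinearMap.BilinForm F E) : LinearMap.BilinForm F (F × F × E) :=
  LinearMap.mk₂ F (fun p p' => p.1 * p'.2.1 + p'.1 * p.2.1 + p.2.1 * p'.2.1 + J p.2.2 p'.2.2)
    (fun a b c => by simp; ring)
    (fun c a b => by simp; ring)
    (fun a b c => by simp; ring)
    (fun c a b => by simp; ring)

omit [CharP F 2] in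
@[simp] theorem modelEven_apply (J : LinearMap.BilinForm F E) (p p' : F × F × E) :
    modelEven J p p' = p.1 * p'.2.1 + p'.1 * p.2.1 + p.2.1 * p'.2.1 + J p.2.2 p'.2.2 := rfl

omit [CharP F 2] in
theorem modelEven_symm {J : LinearMap.BilinForm F E} (hS : ∀ x y, J x y = J y x) (p p' : F × F × E) :
    modelEven J p p' = modelEven J p' p := by
  simp only [modelEven_apply]
  rw [hS]
  ring

omit [CharP F 2] in
theorem modelEven_nondeg {J : LinearMap.BilinForm F E} (hJ : J.Nondegenerate) (hS : ∀ x y, J x y = J y x) :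
    (modelEven J).Nondegenerate := by
  have hsep : ∀ x, (∀ y, modelEven J x y = 0) → x = 0 := by
    rintro ⟨a, b, x⟩ h
    have h1 : b = 0 := by
      have := h (1, 0, 0)
      simpa using this
    have h2 : a = 0 := by
      have := h (0, 1, 0)
      simpa [h1] using this
    have h3 : x = 0 := hJ.1 x (fun y => by
      have := h (0, 0, y)
      simpa using this)
    rw [h1, h2, h3]
    rfl
  exact ⟨hsep, fun y hy => hsep y fun x => (modelEven_symm hS y x).trans (hy x)⟩

/-- The linear maps of the even model. -/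
noncomputable def gEven (J : LinearMap.BilinForm F E) (a₀ : F) (x₀ : E) (h : E ≃ₗ[F] E) :
    (F × F × E) →ₗ[F] (F × F × E) where
  toFun p := (p.1 + p.2.1 * a₀ + J x₀ (h p.2.2), p.2.1, p.2.1 • x₀ + h p.2.2)
  map_add' p p' := by
    apply Prod.ext
    · simp
      ring
    · apply Prod.ext
      · simp
      · simp [add_smul]
        abel
  map_smul' c p := by
    apply Prod.ext
    · simp
      ring
    · apply Prod.ext
      · simp
      · simp [mul_smul, smul_add]

omit [CharP F 2] in
@[simp] theorem gEven_apply (J : LinearMap.BilinForm F E) (a₀ : F) (x₀ : E) (h : E ≃ₗ[F] E) (p : F × F × E) :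
    gEven J a₀ x₀ h p = (p.1 + p.2.1 * a₀ + J x₀ (h p.2.2), p.2.1, p.2.1 • x₀ + h p.2.2) := rfl

theorem gEven_iso {J : LinearMap.BilinForm F E} (hS : ∀ x y, J x y = J y x) (hA : J.IsAlt)
    (a₀ : F) (x₀ : E) {h : E ≃ₗ[F] E} (hh : h ∈ IsomGroup J) (p p' : F × F × E) :
    modelEven J (gEven J a₀ x₀ h p) (gEven J a₀ x₀ h p') = modelEven J p p' := by
  obtain ⟨a, b, x⟩ := p
  obtain ⟨a', b', y⟩ := p'
  simp only [gEven_apply, modelEven_apply, map_add, LinearMap.add_apply, map_smul, LinearMap.smul_apply,
    smul_eq_mul, hA x₀, hh x y, hS (h x) x₀]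
  have e1 := add_self' (b * a₀ * b')
  have e2 := add_self' (J x₀ (h y) * b)
  have e3 := add_self' (J x₀ (h x) * b')
  linear_combination e1 + e2 + e3

theorem gEven_inj {J : LinearMap.BilinForm F E} (hJ : J.Nondegenerate) (hS : ∀ x y, J x y = J y x) (hA : J.IsAlt)
    (a₀ : F) (x₀ : E) {h : E ≃ₗ[F] E} (hh : h ∈ IsomGroup J) : Function.Injective (gEven J a₀ x₀ h) := by
  rw [← LinearMap.ker_eq_bot, LinearMap.ker_eq_bot']
  intro p hp
  apply (modelEven_nondeg hJ hS).1
  intro y
  rw [← gEven_iso hS hA a₀ x₀ hh, hp]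
  simp

/-- The isometry group of the even model. -/
theorem card_isom_modelEven [Finite F] [FiniteDimensional F E] {J : LinearMap.BilinForm F E} (hJ : J.Nondegenerate)
    (hA : J.IsAlt) (hS : ∀ x y, J x y = J y x) :
    Nat.card (IsomGroup (modelEven J)) = Nat.card F * Nat.card E * Nat.card (IsomGroup J) := by
  have hnd := modelEven_nondeg hJ hS
  rw [← Nat.card_prod, ← Nat.card_prod]
  symm
  apply Nat.card_eq_of_bijective
    (fun t : (F × E) × IsomGroup J => (⟨LinearEquiv.ofInjectiveEndo (gEven J t.1.1 t.1.2 t.2.1)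
        (gEven_inj hJ hS hA t.1.1 t.1.2 t.2.2), fun p p' => gEven_iso hS hA t.1.1 t.1.2 t.2.2 p p'⟩ : IsomGroup (modelEven J)))
  constructor
  · rintro ⟨⟨a₀, x₀⟩, h⟩ ⟨⟨a₁, x₁⟩, h'⟩ e
    have e1 := congrArg (fun g : IsomGroup (modelEven J) => (g : (F × F × E) ≃ₗ[F] (F × F × E)) (0, 1, 0)) e
    simp only [LinearEquiv.coe_ofInjectiveEndo, gEven_apply, map_zero, add_zero, one_mul, zero_add, one_smul] at e1
    have e2 : a₀ = a₁ := congrArg Prod.fst e1
    have e3 : x₀ = x₁ := congrArg (fun p : F × F × E => p.2.2) e1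
    subst e2 e3
    have e4 : h = h' := by
      apply Subtype.ext
      ext y
      have e5 := congrArg (fun g : IsomGroup (modelEven J) => (g : (F × F × E) ≃ₗ[F] (F × F × E)) (0, 0, y)) e
      simp only [LinearEquiv.coe_ofInjectiveEndo, gEven_apply] at e5
      have e6 := congrArg (fun p : F × F × E => p.2.2) e5
      simpa using e6
    rw [e4]
  · intro g
    have h1 : ∀ p : F × F × E, ((g : (F × F × E) ≃ₗ[F] (F × F × E)) p).2.1 = p.2.1 := by
      intro p
      apply sq_inj
      have := g.2 p p
      simp only [modelEven_apply, hA _, add_zero] at this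
      have e1 := add_self' (((g : (F × F × E) ≃ₗ[F] (F × F × E)) p).1 * ((g : (F × F × E) ≃ₗ[F] (F × F × E)) p).2.1)
      have e2 := add_self' (p.1 * p.2.1)
      rw [pow_two, pow_two]
      linear_combination this - e1 + e2
    have hc : (g : (F × F × E) ≃ₗ[F] (F × F × E)) (1, 0, 0) = (1, 0, 0) := by
      have hk : (g : (F × F × E) ≃ₗ[F] (F × F × E)) (1, 0, 0) - (1, 0, 0) = 0 := by
        apply hnd.2
        intro p
        obtain ⟨q, rfl⟩ := (g : (F × F × E) ≃ₗ[F] (F × F × E)).surjective p
        rw [map_sub, g.2]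
        have := h1 q
        simp [this]
      exact sub_eq_zero.1 hk
    set d := (g : (F × F × E) ≃ₗ[F] (F × F × E)) (0, 1, 0) with hd
    have hd1 : d.2.1 = 1 := h1 _
    have h0 : ∀ x : E, (g : (F × F × E) ≃ₗ[F] (F × F × E)) (0, 0, x) =
        (J d.2.2 ((g : (F × F × E) ≃ₗ[F] (F × F × E)) (0, 0, x)).2.2, 0, ((g : (F × F × E) ≃ₗ[F] (F × F × E)) (0, 0, x)).2.2) := by
      intro x
      have hb := h1 (0, 0, x)
      have hor := g.2 (0, 1, 0) (0, 0, x)
      rw [← hd] at hor
      simp only [modelEven_apply, hb, hd1] at hor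
      simp only [mul_zero, zero_mul, add_zero, zero_add, map_zero, one_mul, LinearMap.zero_apply] at hor
      apply Prod.ext
      · simp only
        have := add_self' (J d.2.2 ((g : (F × F × E) ≃ₗ[F] (F × F × E)) (0, 0, x)).2.2)
        linear_combination hor - this
      · apply Prod.ext
        · exact hb
        · rfl
    let hl : E →ₗ[F] E := (LinearMap.snd F F E).comp ((LinearMap.snd F F (F × E)).comp
      (((g : (F × F × E) ≃ₗ[F] (F × F × E)) : (F × F × E) →ₗ[F] (F × F × E)).comp
        ((LinearMap.inr F F (F × E)).comp (LinearMap.inr F F E))))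
    have hl_apply : ∀ x, hl x = ((g : (F × F × E) ≃ₗ[F] (F × F × E)) (0, 0, x)).2.2 := fun x => rfl
    have hiso : ∀ x y, J (hl x) (hl y) = J x y := by
      intro x y
      have := g.2 (0, 0, x) (0, 0, y)
      rw [h0 x, h0 y] at this
      simpa [hl_apply] using this
    have hinj : Function.Injective hl := by
      rw [← LinearMap.ker_eq_bot, LinearMap.ker_eq_bot']
      intro x hx
      apply hJ.1
      intro y
      rw [← hiso, hx, map_zero, LinearMap.zero_apply]
    let hh : E ≃ₗ[F] E := LinearEquiv.ofInjectiveEndo hl hinj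
    have hhm : hh ∈ IsomGroup J := fun x y => hiso x y
    refine ⟨⟨(d.1, d.2.2), ⟨hh, hhm⟩⟩, ?_⟩
    apply Subtype.ext
    ext p
    all_goals
      obtain ⟨a, b, x⟩ := p
      have e : ((a, b, x) : F × F × E) = a • ((1, 0, 0) : F × F × E) + b • ((0, 1, 0) : F × F × E) + (0, 0, x) := by
        simp
      have e2 : (g : (F × F × E) ≃ₗ[F] (F × F × E)) (a, b, x) =
          a • ((1, 0, 0) : F × F × E) + b • d + (J d.2.2 (hl x), 0, hl x) := by
        conv_lhs => rw [e]
        rw [map_add, map_add, map_smul, map_smul, hc, h0 x]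
        rfl
      rw [e2]
      simp [hh, hd1]

end Char2

end Cfsg.Agent.Lib.Classical.InvCent.Models
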