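import Mathlib
import Cfsg.Agent.Lib.Classical.InvCent.Models
import Cfsg.Agent.Lib.Classical.Witt.InvolChar2
import Cfsg.Agent.S0760

/-!
# Centralizers of involutions in `O⁺` in characteristic two: the torsor over the fixed space

Every isometry `g` of the polar form of `Q` changes `Q` by the square of a linear functional:
`Q (g y) = Q y + (B y v)²` for a unique `v`. If `g` commutes with `N`, then `N v = 0`, and `Q v` is of the form `t² + t`
as soon as `Q` has a Lagrangian. Transvections realize all such `v`. So the centralizer of `N` in the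
isometry group of `B` is a union of cosets of the centralizer in `O(Q)`, indexed by the vectors `v ∈ ker N`
with `Q v = t² + t`; these are counted by flipping arguments.
-/

set_option autoImplicit false
set_option linter.unusedSectionVars false
set_option linter.unusedVariables false
set_option linter.style.haveILetI false

namespace Cfsg.Agent.Lib.Classical.InvCent.Torsor

open Module QuadraticMap
open Cfsg.Agent.Lib.Classical.Symp.AltForm Cfsg.Agent.Lib.Classical.Symp.InvolChar2
open Cfsg.Agent.Lib.Classical.InvCent.Core Cfsg.Agent.Lib.Classical.InvCent.Models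
open Cfsg.Agent.Lib.Classical.Witt.InvolChar2 (IsQuadN polar_isAlt)
open Cfsg.Agent.Lib.Classical.Witt.TS (IsTS)

section Counting

theorem card_eq_of_fibers {G T : Type*} [Group G] [Finite G] [Finite T] (H : Subgroup G) (f : G → T)
    (hs : Function.Surjective f) (hf : ∀ g g', f g = f g' ↔ g * g'⁻¹ ∈ H) :
    Nat.card G = Nat.card H * Nat.card T := by
  classical
  haveI := Fintype.ofFinite T
  have h1 : ∀ t, Nat.card {g // f g = t} = Nat.card H := by
    intro t
    obtain ⟨h, rfl⟩ := hs t
    apply Nat.card_congr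
    exact {
      toFun := fun g => ⟨g.1 * h⁻¹, (hf _ _).1 g.2⟩
      invFun := fun k => ⟨k.1 * h, (hf _ _).2 (by simpa using k.2)⟩
      left_inv := fun g => by ext; simp
      right_inv := fun k => by ext; simp }
  rw [← Nat.card_congr (Equiv.sigmaFiberEquiv f), Nat.card_sigma]
  simp [h1, Nat.card_eq_fintype_card, mul_comm]

theorem card_split {α : Type*} [Finite α] (P : α → Prop) :
    Nat.card α = Nat.card {a // P a} + Nat.card {a // ¬ P a} := by
  classical
  rw [← Nat.card_sum]
  exact Nat.card_congr (Equiv.sumCompl P).symm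

theorem two_mul_card_of_flip {α : Type*} [Finite α] (P S : α → Prop) (σ : α → α)
    (hSP : ∀ a, S a → P a)
    (hσS : ∀ a, ¬ S a → ¬ S (σ a)) (hσσ : ∀ a, ¬ S a → σ (σ a) = a)
    (hσP : ∀ a, ¬ S a → (P (σ a) ↔ ¬ P a)) :
    2 * Nat.card {a // P a} = Nat.card α + Nat.card {a // S a} := by
  classical
  haveI := Fintype.ofFinite α
  have e : {a // P a ∧ ¬ S a} ≃ {a // ¬ P a} := {
      toFun := fun a => ⟨σ a.1, by rw [hσP a.1 a.2.2]; exact not_not.2 a.2.1⟩
      invFun := fun a => ⟨σ a.1, by
        have hS : ¬ S a.1 := fun h => a.2 (hSP _ h)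
        exact ⟨(hσP a.1 hS).2 a.2, hσS _ hS⟩⟩
      left_inv := fun a => Subtype.ext (hσσ a.1 a.2.2)
      right_inv := fun a => Subtype.ext (hσσ a.1 (fun h => a.2 (hSP _ h))) }
  have h1 := Nat.card_congr e
  have h4 : Nat.card {a // P a} = Nat.card {a // S a} + Nat.card {a // P a ∧ ¬ S a} := by
    rw [card_split (α := {a // P a}) (fun x => S x.1)]
    congr 1
    · apply Nat.card_congr
      exact {
        toFun := fun x => ⟨x.1.1, x.2⟩
        invFun := fun a => ⟨⟨a.1, hSP _ a.2⟩, a.2⟩
        left_inv := fun x => rfl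
        right_inv := fun a => rfl }
    · apply Nat.card_congr
      exact {
        toFun := fun x => ⟨x.1.1, x.1.2, x.2⟩
        invFun := fun a => ⟨⟨a.1, a.2.1⟩, a.2.2⟩
        left_inv := fun x => rfl
        right_inv := fun a => rfl }
  have h5 := card_split P
  omega

end Counting

section Rt

variable (F : Type*) [Field F] [Finite F] [CharP F 2]

/-- The additive map `t ↦ t² + t`. -/
noncomputable def wpHom : F →+ F :=
  AddMonoidHom.mk' (fun t => t ^ 2 + t) (fun a b => by
    have h2 : (2 : F) = 0 := two_eq_zero' F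
    linear_combination (a * b) * h2)

/-- The image of `t ↦ t² + t`. -/
noncomputable def Rt : AddSubgroup F := (wpHom F).range

variable {F} in
theorem mem_Rt {a : F} : a ∈ Rt F ↔ ∃ t : F, t ^ 2 + t = a := Iff.rfl

theorem zero_mem_Rt' : (0 : F) ∈ Rt F := (Rt F).zero_mem

theorem card_ker_wpHom : Nat.card (wpHom F).ker = 2 := by
  rw [Nat.card_eq_two_iff]
  refine ⟨⟨0, by simp [AddMonoidHom.mem_ker]⟩, ⟨1, ?_⟩, ?_, ?_⟩
  · rw [AddMonoidHom.mem_ker]
    change (1 : F) ^ 2 + 1 = 0
    rw [one_pow]
    exact add_self' 1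
  · intro h
    exact zero_ne_one (congrArg Subtype.val h)
  · ext ⟨t, ht⟩
    simp only [Set.mem_insert_iff, Set.mem_singleton_iff, Set.mem_univ, iff_true, Subtype.mk.injEq]
    rw [AddMonoidHom.mem_ker] at ht
    have h : t ^ 2 + t = 0 := ht
    have h' : t * (t + 1) = 0 := by linear_combination h
    rcases mul_eq_zero.1 h' with h0 | h0
    · exact Or.inl h0
    · right
      have := add_self' (1 : F)
      linear_combination h0 - this

theorem index_Rt : (Rt F).index = 2 := by
  have h1 := AddSubgroup.card_mul_index (wpHom F).ker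
  rw [AddSubgroup.index_ker, card_ker_wpHom] at h1
  have h2 := AddSubgroup.card_mul_index (Rt F)
  have h3 : 0 < Nat.card (Rt F) := Nat.card_pos
  have h4 : Nat.card (wpHom F).range = Nat.card (Rt F) := rfl
  rw [h4] at h1
  rw [← h1] at h2
  nlinarith

variable {F} in
theorem add_mem_Rt_iff {a b : F} : a + b ∈ Rt F ↔ (a ∈ Rt F ↔ b ∈ Rt F) :=
  AddSubgroup.add_mem_iff_of_index_two (index_Rt F)

theorem exists_not_mem_Rt : ∃ e : F, e ∉ Rt F := by
  by_contra hc
  push Not at hc
  have h : Rt F = ⊤ := by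
    ext a
    simp [hc a]
  have := index_Rt F
  rw [h, AddSubgroup.index_top] at this
  omega

theorem exists_sqrt (a : F) : ∃ b : F, b ^ 2 = a := by
  have hc : ringChar F = 2 := ringChar.eq F 2
  obtain ⟨b, hb⟩ := FiniteField.isSquare_of_char_two hc a
  exact ⟨b, by rw [hb, pow_two]⟩

end Rt

theorem add_self_V (F : Type*) [Field F] [CharP F 2] {V : Type*} [AddCommGroup V] [Module F V] (u : V) :
    u + u = 0 := by
  rw [← two_smul F u, two_eq_zero' F, zero_smul]

section Main

variable {F V : Type*} [Field F] [AddCommGroup V] [Module F V]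
variable {Q : QuadraticForm F V}

omit [AddCommGroup V] [Module F V] in
theorem Q_add_aux {W : Type*} [AddCommGroup W] [Module F W] (Q : QuadraticForm F W) (x y : W) :
    Q (x + y) = Q x + Q y + polarBilin Q x y := by
  rw [polarBilin_apply_apply, polar]
  ring

theorem Q_smul_aux (c : F) (x : V) : Q (c • x) = c ^ 2 * Q x := by
  rw [QuadraticMap.map_smul, smul_eq_mul, pow_two]

variable [Finite F] [CharP F 2]

omit [Finite F] [CharP F 2] in
theorem polar_symm (x y : V) : polarBilin Q x y = polarBilin Q y x := by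
  rw [polarBilin_apply_apply, polarBilin_apply_apply, polar_comm]

omit [Finite F] in
theorem Q_add_N {N : V →ₗ[F] V} (hN : IsQuadN Q N) (z : V) : Q (z + N z) = Q z := by
  rw [Q_add_aux, hN.val, polarBilin_apply_apply, add_assoc, add_self', add_zero]

/-- The defect of an isometry of the polar form. -/
theorem exists_defect [FiniteDimensional F V] (hQ : (polarBilin Q).Nondegenerate) (g : V ≃ₗ[F] V)
    (hg : g ∈ IsomGroup (polarBilin Q)) : ∃ v, ∀ y, Q (g y) = Q y + (polarBilin Q y v) ^ 2 := by
  have h2 : (2 : F) = 0 := two_eq_zero' F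
  choose r hr using exists_sqrt F
  let ℓ : V →ₗ[F] F :=
    { toFun := fun y => r (Q (g y) + Q y)
      map_add' := fun x y => by
        apply sq_inj
        rw [add_sq', hr, hr, hr, map_add, Q_add_aux, Q_add_aux, hg x y]
        linear_combination (polarBilin Q x y - r (Q (g x) + Q x) * r (Q (g y) + Q y)) * h2
      map_smul' := fun c y => by
        apply sq_inj
        rw [hr, map_smul, Q_smul_aux, Q_smul_aux, RingHom.id_apply, smul_eq_mul, mul_pow, hr]
        ring }
  refine ⟨(LinearMap.BilinForm.toDual (polarBilin Q) hQ).symm ℓ, fun y => ?_⟩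
  have h := LinearMap.BilinForm.apply_toDual_symm_apply (hB := hQ) ℓ y
  rw [polar_symm y, h]
  change _ = Q y + (r (Q (g y) + Q y)) ^ 2
  rw [hr]
  linear_combination (- Q y) * h2

theorem defect_unique [FiniteDimensional F V] (hQ : (polarBilin Q).Nondegenerate) {v v' : V}
    (h : ∀ y, (polarBilin Q y v) ^ 2 = (polarBilin Q y v') ^ 2) : v = v' := by
  rw [← sub_eq_zero]
  apply hQ.2
  intro y
  rw [map_sub, sub_eq_zero]
  exact sq_inj (h y)

variable {N : V →ₗ[F] V}

/-- Fixed vector of the defect. -/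
theorem N_defect_eq_zero (hQ : (polarBilin Q).Nondegenerate) (hN : IsQuadN Q N)
    {g : V ≃ₗ[F] V} (hg : ∀ x, g (N x) = N (g x)) {v : V}
    (hv : ∀ y, Q (g y) = Q y + (polarBilin Q y v) ^ 2) : N v = 0 := by
  apply hQ.1
  intro y
  rw [hN.adj.adj, polar_symm]
  have h1 := hv (y + N y)
  rw [map_add, hg, Q_add_N hN, Q_add_N hN, hv y, map_add, LinearMap.add_apply, add_sq'] at h1
  have h2 : (2 : F) = 0 := two_eq_zero' F
  have h3 : (polarBilin Q (N y) v) ^ 2 = 0 := by
    linear_combination (- polarBilin Q y v * polarBilin Q (N y) v) * h2 - h1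
  exact pow_eq_zero_iff (two_ne_zero) |>.1 h3

/-- Nondegeneracy and a totally singular subspace of half dimension is its own orthogonal. -/
theorem orthogonal_eq_of_half [FiniteDimensional F V] (hQ : (polarBilin Q).Nondegenerate) {m : ℕ}
    (hV : finrank F V = 2 * m) {L : Submodule F V} (hLm : finrank F L = m)
    (hL : ∀ a ∈ L, ∀ b ∈ L, polarBilin Q a b = 0) : LinearMap.BilinForm.orthogonal (polarBilin Q) L = L := by
  symm
  apply Submodule.eq_of_le_of_finrank_eq
  · intro x hx y hy
    exact hL y hy x hx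
  · rw [LinearMap.BilinForm.finrank_orthogonal hQ, hV, hLm]
    omega

omit [CharP F 2] [Finite F] in
theorem IsTS_polar {L : Submodule F V} (hL : IsTS Q L) : ∀ a ∈ L, ∀ b ∈ L, polarBilin Q a b = 0 :=
  fun _ ha _ hb => hL.polar_eq_zero ha hb

/-- The root lemma: a second form on the same polar space with a Lagrangian has defect
of the form `t² + t`. -/
theorem mem_Rt_of_lag [FiniteDimensional F V] (hQ : (polarBilin Q).Nondegenerate) {m : ℕ}
    (hV : finrank F V = 2 * m) {M L : Submodule F V} (hM : IsTS Q M) (hMm : finrank F M = m)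
    (hLm : finrank F L = m) (v : V) (hL : ∀ y ∈ L, Q y = (polarBilin Q y v) ^ 2) : Q v ∈ Rt F := by
  by_contra hc
  have h2 : (2 : F) = 0 := two_eq_zero' F
  have hv0 : Q v ≠ 0 := fun h => hc (h ▸ (Rt F).zero_mem)
  have halt : ∀ x, polarBilin Q x x = 0 := polar_isAlt Q
  have hLti : ∀ a ∈ L, ∀ b ∈ L, polarBilin Q a b = 0 := by
    intro a ha b hb
    have h1 := hL _ (L.add_mem ha hb)
    rw [Q_add_aux, hL a ha, hL b hb, map_add, LinearMap.add_apply, add_sq'] at h1
    linear_combination h1 + (polarBilin Q a v * polarBilin Q b v) * h2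
  have hLo := orthogonal_eq_of_half hQ hV hLm hLti
  have hMo := orthogonal_eq_of_half hQ hV hMm (IsTS_polar hM)
  have hvL : v ∉ L := by
    intro h
    have h1 := hL v h
    rw [halt v] at h1
    apply hv0
    rw [h1]
    ring
  obtain ⟨y₁, hy₁, hy₁v⟩ : ∃ y₁ ∈ L, polarBilin Q y₁ v ≠ 0 := by
    by_contra hcon
    push Not at hcon
    apply hvL
    rw [← hLo]
    intro y hy
    exact hcon y hy
  set c := polarBilin Q y₁ v with hc1
  set y₀ := c⁻¹ • y₁ with hy₀
  have hy₀L : y₀ ∈ L := L.smul_mem _ hy₁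
  have hy₀v : polarBilin Q y₀ v = 1 := by
    rw [hy₀, map_smul, LinearMap.smul_apply, smul_eq_mul, ← hc1]
    exact inv_mul_cancel₀ hy₁v
  set L₀ : Submodule F V := L ⊓ LinearMap.ker ((polarBilin Q).flip v) with hL₀
  have hL₀mem : ∀ z, z ∈ L₀ ↔ z ∈ L ∧ polarBilin Q z v = 0 := by
    intro z
    simp [hL₀, Submodule.mem_inf, LinearMap.mem_ker]
  have hfin : finrank F L₀ + 1 = m := by
    have := Cfsg.Agent.Lib.Classical.Witt.TS.finrank_inf_ker_add_one L ((polarBilin Q).flip v) hy₀L (by
      rw [LinearMap.flip_apply, hy₀v]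
      exact one_ne_zero)
    rw [hLm] at this
    exact this
  -- the singular vectors of `L₀^⊥`
  have hkey : ∀ y, y ∈ LinearMap.BilinForm.orthogonal (polarBilin Q) L₀ → Q y = 0 → y ∈ L₀ := by
    intro y hy hQy
    set β := polarBilin Q y y₀ with hβ
    set α := polarBilin Q y v with hα
    have hwL : y - β • v ∈ L := by
      rw [← hLo]
      intro z hz
      change polarBilin Q z (y - β • v) = 0
      -- decompose `z`
      have hz0 : z - (polarBilin Q z v) • y₀ ∈ L₀ := by
        rw [hL₀mem]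
        refine ⟨L.sub_mem hz (L.smul_mem _ hy₀L), ?_⟩
        rw [map_sub, LinearMap.sub_apply, map_smul, LinearMap.smul_apply, hy₀v, smul_eq_mul, mul_one,
          sub_self]
      have h3 : polarBilin Q (z - (polarBilin Q z v) • y₀) y = 0 := hy _ hz0
      rw [map_sub, LinearMap.sub_apply, map_smul, LinearMap.smul_apply, smul_eq_mul, polar_symm y₀ y,
        ← hβ] at h3
      rw [map_sub, map_smul, smul_eq_mul]
      linear_combination h3
    set w := y - β • v with hw
    have hyw : y = w + β • v := by rw [hw]; abel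
    have hwv : polarBilin Q w v = α := by
      rw [hw, map_sub, LinearMap.sub_apply, map_smul, LinearMap.smul_apply, halt v, smul_zero, sub_zero]
    have hQw : Q w = α ^ 2 := by
      rw [hL w hwL, hwv]
    have hQy' : α ^ 2 + β ^ 2 * Q v + β * α = 0 := by
      rw [hyw, Q_add_aux, hQw, Q_smul_aux, map_smul, smul_eq_mul, hwv] at hQy
      linear_combination hQy
    have hβ0 : β = 0 := by
      by_contra hβ0
      apply hc
      rw [mem_Rt]
      refine ⟨α / β, ?_⟩
      field_simp
      linear_combination hQy' + (- β ^ 2 * Q v) * h2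
    have hα0 : α = 0 := by
      rw [hβ0] at hQy'
      have : α ^ 2 = 0 := by linear_combination hQy'
      exact pow_eq_zero_iff (two_ne_zero) |>.1 this
    rw [hL₀mem]
    have hyy : y = w := by rw [hyw, hβ0, zero_smul, add_zero]
    rw [hyy]
    exact ⟨hwL, by rw [hwv, hα0]⟩
  -- the dimension count
  have hle : LinearMap.BilinForm.orthogonal (polarBilin Q) (M ⊔ L₀) ≤ M ⊓ L₀ := by
    intro x hx
    have hxM : x ∈ M := by
      rw [← hMo]
      exact LinearMap.BilinForm.orthogonal_le le_sup_left hx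
    have hxL : x ∈ LinearMap.BilinForm.orthogonal (polarBilin Q) L₀ := LinearMap.BilinForm.orthogonal_le le_sup_right hx
    exact ⟨hxM, hkey x hxL (hM x hxM)⟩
  have h3 := Submodule.finrank_mono hle
  rw [LinearMap.BilinForm.finrank_orthogonal hQ, hV] at h3
  have h4 := Submodule.finrank_sup_add_finrank_inf_eq M L₀
  omega

section Realize

variable [FiniteDimensional F V]

/-- The transvection as an isometry of the polar form. -/
noncomputable def tvI (v : V) (c : F) : IsomGroup (polarBilin Q) :=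
  ⟨tv (polar_isAlt Q) v c, tv_mem (polar_isAlt Q) v c⟩

theorem tvI_apply (v : V) (c : F) (x : V) :
    (tvI (Q := Q) v c : V ≃ₗ[F] V) x = x + (c * polarBilin Q x v) • v := tv_apply (polar_isAlt Q) v c x

theorem tvI_mem_cen (hN : IsQuadN Q N) {v : V} (hv : N v = 0) (c : F) :
    tvI (Q := Q) v c ∈ cen (polarBilin Q) N := by
  intro x
  rw [tvI_apply, tvI_apply, map_add, map_smul, hv, smul_zero, add_zero, hN.adj.adj, hv, map_zero,
    mul_zero, zero_smul, add_zero]

theorem Q_tvI (v : V) (c y : F) (x : V) (h : c ^ 2 * Q v + c = y) :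
    Q ((tvI (Q := Q) v c : V ≃ₗ[F] V) x) = Q x + y * (polarBilin Q x v) ^ 2 := by
  rw [tvI_apply, Q_add_aux, Q_smul_aux, map_smul, smul_eq_mul, ← h]
  ring

theorem exists_tv_of_Rt (hN : IsQuadN Q N) {v : V} (hv : N v = 0) (hR : Q v ∈ Rt F) :
    ∃ g : IsomGroup (polarBilin Q), g ∈ cen (polarBilin Q) N ∧
      ∀ y, Q ((g : V ≃ₗ[F] V) y) = Q y + (polarBilin Q y v) ^ 2 := by
  obtain ⟨t, ht⟩ := mem_Rt.1 hR
  obtain ⟨c, hc⟩ : ∃ c : F, c ^ 2 * Q v + c = 1 := by
    by_cases h0 : t = 0
    · refine ⟨1, ?_⟩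
      rw [← ht, h0]
      ring
    · refine ⟨t⁻¹, ?_⟩
      rw [← ht]
      have := add_self' (t⁻¹)
      field_simp
      have h3 := add_self' t⁻¹
      have h2 : (2 : F) = 0 := two_eq_zero' F
      linear_combination (1 : F) * h2
  refine ⟨tvI v c, tvI_mem_cen hN hv c, fun y => ?_⟩
  rw [Q_tvI v c 1 y hc, one_mul]

end Realize

section Torsor

variable [FiniteDimensional F V]

/-- The centralizer of `N` in the orthogonal group, inside the centralizer in the isometry group of the
polar form. -/
def cenO (Q : QuadraticForm F V) (N : V →ₗ[F] V) : Subgroup (cen (polarBilin Q) N) where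
  carrier := {g | ∀ y, Q ((g.1 : V ≃ₗ[F] V) y) = Q y}
  mul_mem' {a b} ha hb := by
    intro y
    change Q ((a.1 : V ≃ₗ[F] V) ((b.1 : V ≃ₗ[F] V) y)) = Q y
    rw [ha, hb]
  one_mem' := fun y => rfl
  inv_mem' {a} ha := by
    intro y
    have e1 : (a.1 : V ≃ₗ[F] V) (((a⁻¹).1 : V ≃ₗ[F] V) y) = y := by
      change ((a * a⁻¹).1 : V ≃ₗ[F] V) y = y
      simp
    have := ha (((a⁻¹).1 : V ≃ₗ[F] V) y)
    rw [e1] at this
    exact this.symm

theorem mem_cenO {g : cen (polarBilin Q) N} :
    g ∈ cenO Q N ↔ ∀ y, Q ((g.1 : V ≃ₗ[F] V) y) = Q y := Iff.rfl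

/-- The vectors indexing the cosets. -/
abbrev TT (Q : QuadraticForm F V) (N : V →ₗ[F] V) : Type _ := {a : LinearMap.ker N // Q (a : V) ∈ Rt F}

/-- The defect of an isometry. -/
noncomputable def defect (hQ : (polarBilin Q).Nondegenerate) (g : IsomGroup (polarBilin Q)) : V :=
  (exists_defect hQ g.1 g.2).choose

theorem defect_spec (hQ : (polarBilin Q).Nondegenerate) (g : IsomGroup (polarBilin Q)) (y : V) :
    Q ((g : V ≃ₗ[F] V) y) = Q y + (polarBilin Q y (defect hQ g)) ^ 2 :=
  (exists_defect hQ g.1 g.2).choose_spec y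

theorem defect_eq (hQ : (polarBilin Q).Nondegenerate) (g : IsomGroup (polarBilin Q)) {v : V}
    (h : ∀ y, Q ((g : V ≃ₗ[F] V) y) = Q y + (polarBilin Q y v) ^ 2) : defect hQ g = v := by
  apply defect_unique hQ
  intro y
  have h1 := defect_spec hQ g y
  rw [h y] at h1
  exact (add_left_cancel h1).symm

theorem defect_mem_Rt (hQ : (polarBilin Q).Nondegenerate) {m : ℕ}
    (hV : finrank F V = 2 * m) {M : Submodule F V} (hM : IsTS Q M) (hMm : finrank F M = m)
    (g : IsomGroup (polarBilin Q)) : Q (defect hQ g) ∈ Rt F := by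
  set e : V ≃ₗ[F] V := (g : V ≃ₗ[F] V) with he
  apply mem_Rt_of_lag hQ hV hM hMm (L := M.map (e.symm : V →ₗ[F] V))
  · rw [LinearEquiv.finrank_map_eq, hMm]
  · rintro y ⟨z, hz, rfl⟩
    have h1 := defect_spec hQ g (e.symm z)
    have h2 : (g : V ≃ₗ[F] V) (e.symm z) = z := by
      rw [← he]
      simp
    rw [h2, hM z hz] at h1
    have h4 : (2 : F) = 0 := two_eq_zero' F
    change Q (e.symm z) = _
    linear_combination (-1 : F) * h1 - ((polarBilin Q (e.symm z) (defect hQ g)) ^ 2) * h4

/-- The map from the centralizer to the index set. -/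
noncomputable def toTT (hQ : (polarBilin Q).Nondegenerate) (hN : IsQuadN Q N) {m : ℕ}
    (hV : finrank F V = 2 * m) {M : Submodule F V} (hM : IsTS Q M) (hMm : finrank F M = m)
    (g : cen (polarBilin Q) N) : TT Q N :=
  ⟨⟨defect hQ g.1, N_defect_eq_zero hQ hN g.2 (defect_spec hQ g.1)⟩, defect_mem_Rt hQ hV hM hMm g.1⟩

instance instFiniteCen [Finite V] (B : LinearMap.BilinForm F V) (N : V →ₗ[F] V) : Finite (cen B N) := by
  haveI : Finite (V ≃ₗ[F] V) := by
    apply Finite.of_injective (fun e : V ≃ₗ[F] V => (e : V → V))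
    intro a b h
    ext x
    exact congrFun h x
  infer_instance

/-- `|C_Sp(N)| = |C_O(N)| · |T|`. -/
theorem card_cen_eq (hQ : (polarBilin Q).Nondegenerate) (hN : IsQuadN Q N) {m : ℕ}
    (hV : finrank F V = 2 * m) {M : Submodule F V} (hM : IsTS Q M) (hMm : finrank F M = m) :
    Nat.card (cen (polarBilin Q) N) = Nat.card (cenO Q N) * Nat.card (TT Q N) := by
  haveI : Finite V := Module.finite_of_finite F
  apply card_eq_of_fibers (cenO Q N) (toTT hQ hN hV hM hMm)
  · rintro ⟨⟨v, hv⟩, hR⟩
    have hv' : N v = 0 := hv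
    obtain ⟨g, hgc, hg⟩ := exists_tv_of_Rt hN hv' hR
    refine ⟨⟨g, hgc⟩, ?_⟩
    apply Subtype.ext
    apply Subtype.ext
    exact defect_eq hQ g hg
  · intro g g'
    have e1 : ∀ y, ((g * g'⁻¹).1 : V ≃ₗ[F] V) ((g'.1 : V ≃ₗ[F] V) y) = (g.1 : V ≃ₗ[F] V) y := by
      intro y
      change ((g * g'⁻¹ * g').1 : V ≃ₗ[F] V) y = _
      simp
    constructor
    · intro h
      have h1 : defect hQ g.1 = defect hQ g'.1 := congrArg (fun t : TT Q N => ((t.1 : LinearMap.ker N) : V)) h
      rw [mem_cenO]
      intro z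
      obtain ⟨y, rfl⟩ := (g'.1 : V ≃ₗ[F] V).surjective z
      rw [e1, defect_spec hQ, defect_spec hQ, h1]
    · intro h
      rw [mem_cenO] at h
      apply Subtype.ext
      apply Subtype.ext
      apply defect_unique hQ
      intro y
      have h2 := h ((g'.1 : V ≃ₗ[F] V) y)
      rw [e1, defect_spec hQ, defect_spec hQ] at h2
      exact add_left_cancel h2

/-- Counting `T` when `Q` does not vanish on the image of `N`. -/
theorem two_mul_card_TT_nonalt (hN : IsQuadN Q N) (hc : ∃ y, Q (N y) ≠ 0) :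
    2 * Nat.card (TT Q N) = Nat.card (LinearMap.ker N) := by
  haveI : Finite V := Module.finite_of_finite F
  obtain ⟨y₀, hy₀⟩ := hc
  obtain ⟨e, he⟩ := exists_not_mem_Rt F
  obtain ⟨a, ha⟩ := exists_sqrt F (e / Q (N y₀))
  set u₀ := N (a • y₀) with hu₀
  have hQu : Q u₀ = e := by
    rw [hu₀, map_smul, Q_smul_aux, ha]
    field_simp
  have hNu : N u₀ = 0 := hN.adj.sq _
  have hb : ∀ k ∈ LinearMap.ker N, polarBilin Q k u₀ = 0 := by
    intro k hk
    rw [hu₀, ← hN.adj.adj, (LinearMap.mem_ker.1 hk), map_zero, LinearMap.zero_apply]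
  have h := two_mul_card_of_flip (α := LinearMap.ker N) (fun k => Q (k : V) ∈ Rt F) (fun _ => False)
    (fun k => ⟨(k : V) + u₀, by
      rw [LinearMap.mem_ker, map_add, LinearMap.mem_ker.1 k.2, hNu, add_zero]⟩)
    (fun _ h => h.elim) (fun _ _ => not_false)
    (fun k _ => by
      apply Subtype.ext
      change (k : V) + u₀ + u₀ = k
      rw [add_assoc, add_self_V F, add_zero])
    (fun k _ => by
      change Q ((k : V) + u₀) ∈ Rt F ↔ _
      rw [Q_add_aux, hQu, hb _ k.2, add_zero, add_mem_Rt_iff]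
      simp [he])
  simpa using h

/-- Counting `T` when `Q` vanishes on the image of `N`, with a Lagrangian above the image. -/
theorem two_mul_card_TT_alt (hQ : (polarBilin Q).Nondegenerate) (hN : IsQuadN Q N) {m : ℕ}
    (hV : finrank F V = 2 * m) {L : Submodule F V} (hUL : LinearMap.range N ≤ L) (hL : IsTS Q L)
    (hLm : finrank F L = m) :
    2 * Nat.card (TT Q N) = Nat.card (LinearMap.ker N) + Nat.card L := by
  haveI : Finite V := Module.finite_of_finite F
  obtain ⟨e, he⟩ := exists_not_mem_Rt F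
  have hLo := orthogonal_eq_of_half hQ hV hLm (IsTS_polar hL)
  have hLK : L ≤ LinearMap.ker N := by
    intro l hl
    rw [LinearMap.mem_ker]
    apply hQ.1
    intro y
    rw [hN.adj.adj]
    exact IsTS_polar hL _ hl _ (hUL ⟨y, rfl⟩)
  have hlf : ∀ q : V ⧸ L, ∃ l, l ∈ L ∧ ∀ y : V, L.mkQ y = q → y ∉ L → polarBilin Q y l = e := by
    intro q
    obtain ⟨y₀, rfl⟩ := L.mkQ_surjective q
    by_cases hy₀ : y₀ ∈ L
    · refine ⟨0, L.zero_mem, fun y hy hyL => ?_⟩
      exfalso
      apply hyL
      have h1 : y - y₀ ∈ L := by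
        rw [← Submodule.Quotient.eq]
        exact hy
      have := L.add_mem h1 hy₀
      simpa using this
    · obtain ⟨l₁, hl₁, hne⟩ : ∃ l₁ ∈ L, polarBilin Q y₀ l₁ ≠ 0 := by
        by_contra hcon
        push Not at hcon
        apply hy₀
        rw [← hLo]
        intro l hl
        change polarBilin Q l y₀ = 0
        rw [polar_symm]
        exact hcon l hl
      refine ⟨(e / polarBilin Q y₀ l₁) • l₁, L.smul_mem _ hl₁, fun y hy hyL => ?_⟩
      have h1 : y - y₀ ∈ L := by
        rw [← Submodule.Quotient.eq]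
        exact hy
      have h3 : polarBilin Q (y - y₀) l₁ = 0 := IsTS_polar hL _ h1 _ hl₁
      rw [map_sub, LinearMap.sub_apply, sub_eq_zero] at h3
      rw [map_smul, smul_eq_mul, h3]
      field_simp
  choose lf hlfL hlfe using hlf
  have hmk : ∀ y : V, L.mkQ (y + lf (L.mkQ y)) = L.mkQ y := by
    intro y
    rw [map_add, add_eq_left]
    exact (Submodule.Quotient.mk_eq_zero L).2 (hlfL _)
  have h := two_mul_card_of_flip (α := LinearMap.ker N) (fun k => Q (k : V) ∈ Rt F) (fun k => (k : V) ∈ L)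
    (fun k => ⟨(k : V) + lf (L.mkQ k), by
      rw [LinearMap.mem_ker, map_add, LinearMap.mem_ker.1 k.2, LinearMap.mem_ker.1 (hLK (hlfL _)), add_zero]⟩)
    (fun k hk => by
      rw [hL _ hk]
      exact (Rt F).zero_mem)
    (fun k hk h3 => hk (by
      have := L.sub_mem h3 (hlfL (L.mkQ (k : V)))
      simpa using this))
    (fun k _ => by
      apply Subtype.ext
      change (k : V) + lf (L.mkQ k) + lf (L.mkQ ((k : V) + lf (L.mkQ k))) = k
      rw [hmk, add_assoc, add_self_V F, add_zero])
    (fun k hk => by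
      change Q ((k : V) + lf (L.mkQ k)) ∈ Rt F ↔ _
      rw [Q_add_aux, hL _ (hlfL _), hlfe _ _ rfl hk, add_zero, add_mem_Rt_iff]
      simp [he])
  have e2 : Nat.card {k : LinearMap.ker N // (k : V) ∈ L} = Nat.card L := by
    apply Nat.card_congr
    exact {
      toFun := fun k => ⟨k.1.1, k.2⟩
      invFun := fun l => ⟨⟨l.1, hLK l.2⟩, l.2⟩
      left_inv := fun k => rfl
      right_inv := fun l => rfl }
  rw [e2] at h
  exact h

/-- Every totally singular subspace lies in a totally singular subspace of half dimension,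
if there is one of half dimension at all. -/
theorem exists_lagrangian_over (hQ : (polarBilin Q).Nondegenerate) {m : ℕ}
    (hV : finrank F V = 2 * m) {M U : Submodule F V} (hM : IsTS Q M) (hMm : finrank F M = m)
    (hU : IsTS Q U) : ∃ L : Submodule F V, U ≤ L ∧ IsTS Q L ∧ finrank F L = m := by
  obtain ⟨L, ⟨hUL, hL⟩, hmax⟩ := (wellFounded_gt (α := Submodule F V)).has_min {W | U ≤ W ∧ IsTS Q W} ⟨U, le_rfl, hU⟩
  have hmax₂ : ∀ W : Submodule F V, L ≤ W → (∀ w ∈ W, Q w = 0) → W = L := by
    intro W hLW hW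
    by_contra hne
    exact hmax W ⟨hUL.trans hLW, hW⟩ (lt_of_le_of_ne hLW (Ne.symm hne))
  have h1 := Cfsg.Agent.S0760.finrank_le_aux Q hQ M L hM hL hmax₂
  have h2 : L ≤ LinearMap.BilinForm.orthogonal (polarBilin Q) L := fun x hx y hy => IsTS_polar hL y hy x hx
  have h3 := Submodule.finrank_mono h2
  rw [LinearMap.BilinForm.finrank_orthogonal hQ, hV] at h3
  refine ⟨L, hUL, hL, by omega⟩

/-- Nonsingular vectors in a large subspace. -/
theorem exists_nonsingular_of_large (hQ : (polarBilin Q).Nondegenerate) {m : ℕ}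
    (hV : finrank F V = 2 * m) {K : Submodule F V} (hK : m < finrank F K) : ∃ w ∈ K, Q w ≠ 0 := by
  by_contra hcon
  push Not at hcon
  have hts : IsTS Q K := hcon
  have h2 : K ≤ LinearMap.BilinForm.orthogonal (polarBilin Q) K := fun x hx y hy => IsTS_polar hts y hy x hx
  have h3 := Submodule.finrank_mono h2
  rw [LinearMap.BilinForm.finrank_orthogonal hQ, hV] at h3
  omega

/-- The cardinality of the kernel. -/
theorem card_ker_eq {q : ℕ} (hq : Nat.card F = q) {m s : ℕ} (hV : finrank F V = 2 * m)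
    (hs : finrank F (LinearMap.range N) = s) :
    Nat.card (LinearMap.ker N) = q ^ (2 * m - s) := by
  have h1 := LinearMap.finrank_range_add_finrank_ker N
  rw [hs, hV] at h1
  rw [Module.natCard_eq_pow_finrank (K := F), hq]
  congr 1
  omega

end Torsor

end Main

end Cfsg.Agent.Lib.Classical.InvCent.Torsor
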