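import Mathlib
import Cfsg.Agent.Lib.Classical.InvCent.Torsor

/-!
# The sign sum of a quadratic form in characteristic two and the index of `O(Q)` in `Sp`

Let `ε` be the sign character of `F` with kernel `{t² + t}`, and `S = ∑ ε (Q v)`. Then `S² = |V|`, and an isometry `g` of the polar form
with `Q (g y) = Q y + B(y, v)²` has `ε (Q v) = 1`. So the isometry group of the polar form has `O(Q)`
with index `|{v | Q v ∈ Rt}| = (|V| + S)/2`.
-/

set_option autoImplicit false
set_option linter.unusedSectionVars false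
set_option linter.unusedVariables false
set_option linter.style.haveILetI false

namespace Cfsg.Agent.Lib.Classical.InvCent.Forms

open Module QuadraticMap
open Cfsg.Agent.Lib.Classical.Symp.AltForm Cfsg.Agent.Lib.Classical.Symp.InvolChar2
open Cfsg.Agent.Lib.Classical.InvCent.Core Cfsg.Agent.Lib.Classical.InvCent.Models
open Cfsg.Agent.Lib.Classical.InvCent.Torsor
open Cfsg.Agent.Lib.Classical.Witt.InvolChar2 (IsQuadN polar_isAlt)

section Eps

variable {F : Type*} [Field F] [Finite F] [CharP F 2]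

/-- The sign character of `F`. -/
noncomputable def eps (a : F) : ℤ := @ite _ (a ∈ Rt F) (Classical.dec _) 1 (-1)

theorem eps_add (a b : F) : eps (a + b) = eps a * eps b := by
  unfold eps
  by_cases ha : a ∈ Rt F <;> by_cases hb : b ∈ Rt F <;> simp [ha, hb, add_mem_Rt_iff]

theorem eps_sq (a : F) : eps (a ^ 2) = eps a := by
  have h : a ^ 2 + a ∈ Rt F := mem_Rt.2 ⟨a, rfl⟩
  have h2 := add_mem_Rt_iff.1 h
  unfold eps
  by_cases ha : a ∈ Rt F <;> simp [ha, h2]

theorem eps_mul_self (a : F) : eps a * eps a = 1 := by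
  unfold eps
  by_cases ha : a ∈ Rt F <;> simp [ha]

theorem eps_eq_one_iff {a : F} : eps a = 1 ↔ a ∈ Rt F := by
  unfold eps
  by_cases ha : a ∈ Rt F <;> simp [ha]

theorem eps_zero : eps (0 : F) = 1 := eps_eq_one_iff.2 (Rt F).zero_mem

theorem self_add_self (a : F) : a + a = 0 := by
  have h2 : (2 : F) = 0 := two_eq_zero' F
  linear_combination a * h2

variable {V : Type*} [AddCommGroup V] [Module F V] [Fintype V]

/-- The sign sum of a function. -/
noncomputable def Sf (f : V → F) : ℤ := ∑ v, eps (f v)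

theorem Sf_comp (f : V → F) (g : V ≃ V) : Sf (fun v => f (g v)) = Sf f :=
  Equiv.sum_comp g (fun v => eps (f v))

variable {Q : QuadraticForm F V}

/-- The sum of a nontrivial linear character vanishes. -/
theorem sum_eps_polar (hQ : (polarBilin Q).Nondegenerate) {u : V} (hu : u ≠ 0) :
    ∑ v, eps (polarBilin Q v u) = 0 := by
  obtain ⟨e, he⟩ := exists_not_mem_Rt F
  obtain ⟨v₁, hv₁⟩ : ∃ v₁, polarBilin Q v₁ u ≠ 0 := by
    by_contra hc
    push Not at hc
    exact hu (hQ.2 u hc)
  set v₀ : V := (e * (polarBilin Q v₁ u)⁻¹) • v₁ with hv₀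
  have h1 : polarBilin Q v₀ u = e := by
    rw [hv₀, map_smul, LinearMap.smul_apply, smul_eq_mul, mul_assoc, inv_mul_cancel₀ hv₁, mul_one]
  have h2 : eps (polarBilin Q v₀ u) = -1 := by
    rw [h1]
    unfold eps
    simp [he]
  have h3 : ∑ v, eps (polarBilin Q (v + v₀) u) = ∑ v, eps (polarBilin Q v u) :=
    Equiv.sum_comp (Equiv.addRight v₀) (fun v => eps (polarBilin Q v u))
  have h4 : ∑ v, eps (polarBilin Q (v + v₀) u) = - ∑ v, eps (polarBilin Q v u) := by
    rw [← Finset.sum_neg_distrib]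
    refine Finset.sum_congr rfl fun v _ => ?_
    rw [map_add, LinearMap.add_apply, eps_add, h2]
    ring
  omega

theorem Sf_mul_self (hQ : (polarBilin Q).Nondegenerate) : Sf (Q : V → F) * Sf (Q : V → F) = Fintype.card V := by
  classical
  unfold Sf
  rw [Finset.sum_mul_sum]
  have h1 : ∀ v : V, ∑ w, eps (Q v) * eps (Q w) = ∑ u, eps (Q u) * eps (polarBilin Q v u) := by
    intro v
    rw [← Equiv.sum_comp (Equiv.addLeft v) (fun w => eps (Q v) * eps (Q w))]
    refine Finset.sum_congr rfl fun u _ => ?_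
    simp only [Equiv.coe_addLeft]
    rw [← eps_add, ← eps_add, Q_add_aux, ← add_assoc, ← add_assoc, self_add_self, zero_add]
  simp_rw [h1]
  rw [Finset.sum_comm]
  have h2 : ∀ u : V, ∑ v, eps (Q u) * eps (polarBilin Q v u) = if u = 0 then (Fintype.card V : ℤ) else 0 := by
    intro u
    split_ifs with hu
    · subst hu
      simp [eps_zero]
    · rw [← Finset.mul_sum, sum_eps_polar hQ hu, mul_zero]
  simp_rw [h2]
  simp

theorem Sf_ne_zero [Nontrivial V] (hQ : (polarBilin Q).Nondegenerate) : Sf (Q : V → F) ≠ 0 := by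
  intro h
  have h1 := Sf_mul_self hQ
  rw [h, zero_mul] at h1
  have h2 : 0 < Fintype.card V := Fintype.card_pos
  omega

/-- A shift by a square functional changes the sign sum by `ε (Q v)`. -/
theorem eps_mul_Sf_shift {f : V → F} {v : V} (hf : ∀ y, f y = Q y + (polarBilin Q y v) ^ 2) :
    eps (Q v) * Sf f = Sf (Q : V → F) := by
  unfold Sf
  rw [Finset.mul_sum, ← Equiv.sum_comp (Equiv.addRight v) (fun y => eps (Q y))]
  refine Finset.sum_congr rfl fun y _ => ?_
  simp only [Equiv.coe_addRight]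
  rw [hf, Q_add_aux, eps_add, eps_add, eps_add, eps_sq]
  ring

/-- The defect of an isometry of the polar form has `Q v ∈ Rt`. -/
theorem mem_Rt_of_defect [Nontrivial V] (hQ : (polarBilin Q).Nondegenerate) (g : V ≃ V) {v : V}
    (hg : ∀ y, Q (g y) = Q y + (polarBilin Q y v) ^ 2) : Q v ∈ Rt F := by
  have h1 := eps_mul_Sf_shift (f := fun y => Q (g y)) hg
  rw [Sf_comp (Q : V → F) g] at h1
  have h2 : (eps (Q v) - 1) * Sf (Q : V → F) = 0 := by
    rw [sub_mul, h1, one_mul, sub_self]
  have h3 := (mul_eq_zero.1 h2).resolve_right (Sf_ne_zero hQ)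
  exact eps_eq_one_iff.1 (by omega)

/-- The number of `v` with `Q v ∈ Rt`. -/
theorem two_mul_card_eq : 2 * (Nat.card {v : V // Q v ∈ Rt F} : ℤ) = Fintype.card V + Sf (Q : V → F) := by
  classical
  rw [Nat.card_eq_fintype_card, Fintype.card_subtype]
  have h1 : ((Finset.univ.filter fun v : V => Q v ∈ Rt F).card : ℤ) = ∑ v : V, if Q v ∈ Rt F then (1 : ℤ) else 0 := by
    rw [Finset.card_filter]
    push_cast
    rfl
  rw [h1, Finset.mul_sum]
  have h2 : (Fintype.card V : ℤ) = ∑ v : V, (1 : ℤ) := by simp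
  rw [h2]
  unfold Sf
  rw [← Finset.sum_add_distrib]
  refine Finset.sum_congr rfl fun v _ => ?_
  unfold eps
  by_cases h : Q v ∈ Rt F <;> simp [h]

/-- Consequently, twice the number is `|V| ± √|V|`. -/
theorem two_mul_card_eq_or {k : ℕ} (hk : Fintype.card V = k * k) (hQ : (polarBilin Q).Nondegenerate) :
    2 * Nat.card {v : V // Q v ∈ Rt F} = k * k + k ∨ 2 * Nat.card {v : V // Q v ∈ Rt F} + k = k * k := by
  have h1 := two_mul_card_eq (Q := Q)
  have h2 := Sf_mul_self hQ
  rw [hk] at h1 h2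
  push_cast at h2 h1
  have h3 : (Sf (Q : V → F) - k) * (Sf (Q : V → F) + k) = 0 := by linear_combination h2
  rcases mul_eq_zero.1 h3 with h | h
  · left
    have h4 : Sf (Q : V → F) = k := by omega
    rw [h4] at h1
    exact_mod_cast h1
  · right
    have h4 : Sf (Q : V → F) = -k := by omega
    rw [h4] at h1
    have : (2 * Nat.card {v : V // Q v ∈ Rt F} + k : ℤ) = k * k := by linear_combination h1
    exact_mod_cast this

end Eps

section Orth

variable {F V : Type*} [Field F] [AddCommGroup V] [Module F V]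

/-- The orthogonal group, inside the isometry group of the polar form. -/
def orthSub (Q : QuadraticForm F V) : Subgroup (IsomGroup (polarBilin Q)) where
  carrier := {g | ∀ y, Q ((g : V ≃ₗ[F] V) y) = Q y}
  mul_mem' {a b} ha hb := by
    intro y
    change Q ((a : V ≃ₗ[F] V) ((b : V ≃ₗ[F] V) y)) = Q y
    rw [ha, hb]
  one_mem' := fun y => rfl
  inv_mem' {a} ha := by
    intro y
    have e1 : (a : V ≃ₗ[F] V) (((a⁻¹ : IsomGroup (polarBilin Q)) : V ≃ₗ[F] V) y) = y := by
      change ((a * a⁻¹ : IsomGroup (polarBilin Q)) : V ≃ₗ[F] V) y = y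
      simp
    have := ha (((a⁻¹ : IsomGroup (polarBilin Q)) : V ≃ₗ[F] V) y)
    rw [e1] at this
    exact this.symm

theorem mem_orthSub {Q : QuadraticForm F V} {g : IsomGroup (polarBilin Q)} :
    g ∈ orthSub Q ↔ ∀ y, Q ((g : V ≃ₗ[F] V) y) = Q y := Iff.rfl

variable [Finite F] [CharP F 2] [FiniteDimensional F V] {Q : QuadraticForm F V}

omit [Finite F] [FiniteDimensional F V] in
theorem isQuadN_zero : IsQuadN Q (0 : V →ₗ[F] V) := by
  refine ⟨⟨fun x y => ?_, fun x => ?_⟩, fun x => ?_⟩
  · simp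
  · simp
  · simp

/-- `|Sp| = |O(Q)| · |{v | Q v ∈ Rt}|`. -/
theorem card_isom_eq [Nontrivial V] (hQ : (polarBilin Q).Nondegenerate) :
    Nat.card (IsomGroup (polarBilin Q)) = Nat.card (orthSub Q) * Nat.card {v : V // Q v ∈ Rt F} := by
  classical
  haveI : Finite V := Module.finite_of_finite F
  haveI : Fintype V := Fintype.ofFinite V
  haveI : Finite (V ≃ₗ[F] V) := by
    apply Finite.of_injective (fun e : V ≃ₗ[F] V => (e : V → V))
    intro a b h
    ext x
    exact congrFun h x
  have hR : ∀ g : IsomGroup (polarBilin Q), Q (defect hQ g) ∈ Rt F := fun g =>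
    mem_Rt_of_defect hQ (g : V ≃ₗ[F] V).toEquiv (defect_spec hQ g)
  apply card_eq_of_fibers (orthSub Q) (fun g => (⟨defect hQ g, hR g⟩ : {v : V // Q v ∈ Rt F}))
  · rintro ⟨v, hv⟩
    obtain ⟨g, -, hg⟩ := exists_tv_of_Rt (isQuadN_zero (Q := Q)) (v := v) (by simp) hv
    exact ⟨g, Subtype.ext (defect_eq hQ g hg)⟩
  · intro g g'
    have e1 : ∀ y, ((g * g'⁻¹ : IsomGroup (polarBilin Q)) : V ≃ₗ[F] V) ((g' : V ≃ₗ[F] V) y) = (g : V ≃ₗ[F] V) y := by
      intro y
      change ((g * g'⁻¹ * g' : IsomGroup (polarBilin Q)) : V ≃ₗ[F] V) y = _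
      simp
    constructor
    · intro h
      have h1 : defect hQ g = defect hQ g' := congrArg Subtype.val h
      rw [mem_orthSub]
      intro z
      obtain ⟨y, rfl⟩ := (g' : V ≃ₗ[F] V).surjective z
      rw [e1, defect_spec hQ, defect_spec hQ, h1]
    · intro h
      rw [mem_orthSub] at h
      apply Subtype.ext
      apply defect_unique hQ
      intro y
      have h2 := h ((g' : V ≃ₗ[F] V) y)
      rw [e1, defect_spec hQ, defect_spec hQ] at h2
      exact add_left_cancel h2

/-- A fixed point free automorphism of prime order `r` preserving `Q`: `|T| ≡ 1` mod `r`. -/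
theorem card_T_modEq (r : ℕ) [Fact r.Prime] (y : V ≃ₗ[F] V) (hQy : ∀ v, Q (y v) = Q v)
    (hy : ∀ v, y^[r] v = v) (hfix : ∀ v, y v = v → v = 0) :
    Nat.card {v : V // Q v ∈ Rt F} ≡ 1 [MOD r] := by
  classical
  haveI : Finite V := Module.finite_of_finite F
  haveI : Fintype V := Fintype.ofFinite V
  let T := {v : V // Q v ∈ Rt F}
  let f : Function.End T := fun v => ⟨y v.1, by rw [hQy]; exact v.2⟩
  have hfk : ∀ (k : ℕ) (v : T), ((f ^ k) v).1 = y^[k] v.1 := by
    intro k
    induction k with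
    | zero => intro v; rfl
    | succ k ih =>
      intro v
      have h1 : (f ^ (k + 1)) v = (f ^ k) (f v) := by rw [pow_succ]; rfl
      rw [h1, ih, Function.iterate_succ_apply]
  have hf : f ^ r ^ 1 = 1 := by
    rw [pow_one]
    funext v
    apply Subtype.ext
    rw [hfk, hy]
    rfl
  have h1 := Equiv.Perm.card_fixedPoints_modEq hf
  have h0 : (0 : V) = (0 : V) := rfl
  let z : T := ⟨0, by
    rw [QuadraticMap.map_zero]
    exact (Rt F).zero_mem⟩
  have h2 : Fintype.card (Function.fixedPoints f) = 1 := by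
    rw [Fintype.card_eq_one_iff]
    refine ⟨⟨z, ?_⟩, ?_⟩
    · apply Subtype.ext
      change y 0 = 0
      exact map_zero y
    · rintro ⟨a, ha⟩
      apply Subtype.ext
      apply Subtype.ext
      exact hfix a.1 (congrArg Subtype.val ha)
  rw [h2] at h1
  rw [Nat.card_eq_fintype_card]
  exact h1

end Orth

end Cfsg.Agent.Lib.Classical.InvCent.Forms
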