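import Mathlib
import Cfsg.Agent.Lib.Classical.InvCent.Forms
import Cfsg.Agent.Lib.Classical.Witt.InvolModels
import Cfsg.Agent.Lib.Classical.Witt.Index

/-!
# Involutions of `O(Q)`, `q` even, with given rank and type, for an arbitrary nondegenerate form `Q`
-/

set_option autoImplicit false
set_option linter.unusedSectionVars false
set_option linter.unusedVariables false
set_option linter.style.haveILetI false

namespace Cfsg.Agent.Lib.Classical.InvCent.FormsInv

open Module QuadraticMap Matrix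
open Cfsg.Agent.Lib.Classical.Orth.Basic Cfsg.Agent.Lib.Classical.Orth.Models
open Cfsg.Agent.Lib.Classical.Witt.InvolChar2
open Cfsg.Agent.Lib.Classical.Witt.InvolCount Cfsg.Agent.Lib.Classical.Witt.InvolModels
open Cfsg.Agent.Lib.Classical.Witt.Index
open Cfsg.Agent.Lib.Linalg.OrthModels

variable {F : Type*} [Field F]

/-- The involution `t` of `O(Q₂)`, moved along an isometry. -/
theorem transport {ι κ : Type} [Fintype ι] [DecidableEq ι] [Fintype κ] [DecidableEq κ]
    {Q₁ : QuadraticForm F (ι → F)} {Q₂ : QuadraticForm F (κ → F)} (e : (ι → F) ≃ₗ[F] (κ → F))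
    (he : ∀ v, Q₂ (e v) = Q₁ v) (t : ↥(Cfsg.isometryGroup F (⇑Q₂))) (htt : t * t = 1) :
    ∃ T : (ι → F) ≃ₗ[F] (ι → F), (∀ v, Q₁ (T v) = Q₁ v) ∧ (∀ v, T (T v) = v) ∧
      finrank F (LinearMap.range ((T : (ι → F) →ₗ[F] (ι → F)) - LinearMap.id)) = rk t ∧
      ((∀ v, polar (⇑Q₁) v (T v) = 0) ↔ IsAltT t) := by
  let L : (κ → F) →ₗ[F] (κ → F) := ((t : GL κ F) : Matrix κ κ F).mulVecLin
  have hL : ∀ v, L v = act t v := fun v => rfl
  have hinv : Function.Involutive L := fun v => by
    rw [hL, hL, act_act_of_sq htt]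
  let T₀ : (κ → F) ≃ₗ[F] (κ → F) := LinearEquiv.ofInvolutive L hinv
  have hT₀ : ∀ v, T₀ v = act t v := fun v => rfl
  refine ⟨e.trans (T₀.trans e.symm), ?_, ?_, ?_, ?_⟩
  · intro v
    simp only [LinearEquiv.trans_apply]
    rw [← he, LinearEquiv.apply_symm_apply, hT₀, Q_act, he]
  · intro v
    simp only [LinearEquiv.trans_apply, LinearEquiv.apply_symm_apply]
    rw [hT₀, hT₀, act_act_of_sq htt, LinearEquiv.symm_apply_apply]
  · have h1 : LinearMap.range (((e.trans (T₀.trans e.symm) : (ι → F) ≃ₗ[F] (ι → F)) : (ι → F) →ₗ[F] (ι → F)) - LinearMap.id) =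
        (LinearMap.range (nM t)).map (e.symm : (κ → F) →ₗ[F] (ι → F)) := by
      ext w
      constructor
      · rintro ⟨v, rfl⟩
        refine ⟨nM t (e v), ⟨e v, rfl⟩, ?_⟩
        simp only [LinearMap.sub_apply, LinearEquiv.coe_coe, LinearEquiv.trans_apply, LinearMap.id_apply]
        rw [nM_apply, map_sub, LinearEquiv.symm_apply_apply, hT₀]
      · rintro ⟨_, ⟨u, rfl⟩, rfl⟩
        refine ⟨e.symm u, ?_⟩
        simp only [LinearMap.sub_apply, LinearEquiv.coe_coe, LinearEquiv.trans_apply, LinearMap.id_apply,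
          LinearEquiv.apply_symm_apply]
        rw [nM_apply, map_sub, hT₀]
    rw [h1, LinearEquiv.finrank_map_eq]
    rfl
  · have hp : ∀ a b, polar (⇑Q₁) a b = polar (⇑Q₂) (e a) (e b) := by
      intro a b
      simp only [polar, ← he, map_add]
    have hT : ∀ v, e ((e.trans (T₀.trans e.symm)) v) = act t (e v) := by
      intro v
      simp only [LinearEquiv.trans_apply, LinearEquiv.apply_symm_apply]
      rfl
    constructor
    · intro h x
      have := h (e.symm x)
      rw [hp, hT, LinearEquiv.apply_symm_apply] at this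
      exact this
    · intro h v
      rw [hp, hT]
      exact h (e v)

variable [Fintype F] [CharP F 2]

/-- An involution of `O(Q)` with prescribed rank and type. -/
theorem exists_T {d : ℕ} (hd : 1 ≤ d) (Q : QuadraticForm F (Fin d ⊕ Fin d → F)) (hQ : (polarBilin Q).Nondegenerate)
    (s : ℕ) (hs : 0 < s) (hsd : s ≤ d) (P : Prop) (hPs : P → Even s)
    (hT : (∃ U : Submodule F (Fin d ⊕ Fin d → F), (∀ w ∈ U, Q w = 0) ∧ finrank F U = d) ∨ Odd d) :
    ∃ T : (Fin d ⊕ Fin d → F) ≃ₗ[F] (Fin d ⊕ Fin d → F), (∀ v, Q (T v) = Q v) ∧ (∀ v, T (T v) = v) ∧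
      finrank F (LinearMap.range ((T : (Fin d ⊕ Fin d → F) →ₗ[F] (Fin d ⊕ Fin d → F)) - LinearMap.id)) = s ∧
      ((∀ v, polar (⇑Q) v (T v) = 0) ↔ P) := by
  have hV : finrank F (Fin d ⊕ Fin d → F) = 2 * d := by
    simp [Module.finrank_fintype_fun_eq_card]
    ring
  rcases exists_isometry_plus_or_minus hd hV Q hQ with ⟨e, he⟩ | ⟨ζ, hζ, e, he⟩
  · have he' : ∀ v, plusForm d F (e v) = Q v := fun v => by
      rw [← he, coe_plusForm_apply]
      rfl
    by_cases hP : P
    · obtain ⟨k, rfl⟩ := hPs hP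
      obtain ⟨t, h1, -, h3, h4⟩ := plus_alt (F := F) d k (by omega) (by omega)
      obtain ⟨T, hT1, hT2, hT3, hT4⟩ := transport e he' t h1
      refine ⟨T, hT1, hT2, ?_, ?_⟩
      · rw [hT3, h3]
        ring
      · exact iff_of_true (hT4.2 h4) hP
    · obtain ⟨t, h1, -, h3, h4⟩ := plus_nonalt (F := F) d s hs hsd
      obtain ⟨T, hT1, hT2, hT3, hT4⟩ := transport e he' t h1
      refine ⟨T, hT1, hT2, by rw [hT3, h3], ?_⟩
      exact iff_of_false (fun h => h4 (hT4.1 h)) hP
  · have he' : ∀ v, minusForm (d - 1) F 1 ζ (e v) = Q v := fun v => by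
      rw [← he, coe_minusForm_apply]
      rfl
    have hab := anisotropic_of_no_root hζ
    by_cases hP : P
    · obtain ⟨k, rfl⟩ := hPs hP
      have hk : 2 * k ≤ d - 1 := by
        by_contra hcon
        have hk2 : k + k = d := by omega
        rcases hT with ⟨U, hU, hUd⟩ | hodd
        · have h1 := finrank_le_of_ts_minus (d - 1) hab (U.map (e : (Fin d ⊕ Fin d → F) →ₗ[F] _)) (by
            rintro _ ⟨u, hu, rfl⟩
            simp only [LinearEquiv.coe_coe]
            rw [he, hU u hu])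
          rw [LinearEquiv.finrank_map_eq, hUd] at h1
          omega
        · rw [← hk2] at hodd
          exact (Nat.not_even_iff_odd.2 hodd) ⟨k, rfl⟩
      obtain ⟨t, h1, -, h3, h4⟩ := minus_alt (F := F) (m := d - 1) (a := 1) (b := ζ) hab k (by omega) hk
      obtain ⟨T, hT1, hT2, hT3, hT4⟩ := transport e he' t h1
      refine ⟨T, hT1, hT2, ?_, ?_⟩
      · rw [hT3, h3]
        ring
      · exact iff_of_true (hT4.2 h4) hP
    · obtain ⟨t, h1, -, h3, h4⟩ := minus_nonalt (F := F) (m := d - 1) (a := 1) (b := ζ) hab s hs (by omega)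
      obtain ⟨T, hT1, hT2, hT3, hT4⟩ := transport e he' t h1
      refine ⟨T, hT1, hT2, by rw [hT3, h3], ?_⟩
      exact iff_of_false (fun h => h4 (hT4.1 h)) hP

end Cfsg.Agent.Lib.Classical.InvCent.FormsInv
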