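import Mathlib
import Cfsg.Agent.Lib.Classical.InvCent.Models

/-!
# The order of the centralizer of an involution of `Sp_2m(q)`, `q` even
-/

set_option autoImplicit false

namespace Cfsg.Agent.Lib.Classical.InvCent.Sp

open Module Matrix Cfsg
open Cfsg.Agent.Lib.Classical.Symp.AltForm Cfsg.Agent.Lib.Classical.Symp.InvolChar2
open Cfsg.Agent.Lib.Classical.Symp.Count Cfsg.Agent.Lib.Classical.Symp.Basic
open Cfsg.Agent.Lib.Classical.Symp.IsoCount Cfsg.Agent.Lib.Classical.Symp.SympBasis
open Cfsg.Agent.Lib.Classical.Symp.InvolChar2Mat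
open Cfsg.Agent.Lib.Classical.InvCent.Core Cfsg.Agent.Lib.Classical.InvCent.Models

variable {F : Type*} [Field F] {m : ℕ}

section Nonalt

variable [Finite F] [CharP F 2]

variable {U : Type*} [AddCommGroup U] [Module F U] [FiniteDimensional F U]

theorem card_isom_odd {G : LinearMap.BilinForm F U} (hS : G.IsSymm) (hN : G.Nondegenerate)
    (hA : ∃ x, G x x ≠ 0) {k : ℕ} (hd : finrank F U = 2 * k + 1) {q : ℕ} (hq : Nat.card F = q) :
    Nat.card (IsomGroup G) = q ^ (k ^ 2) * ∏ i ∈ Finset.range k, (q ^ (2 * (i + 1)) - 1) := by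
  have hJS := symm_of_alt (B := sympBilin k F) sympBilin_isAlt
  have hmN := modelOdd_nondeg (J := sympBilin k F) sympBilin_nondegenerate hJS
  have hfr : finrank F (F × (Fin k ⊕ Fin k → F)) = finrank F U := by
    rw [hd, Module.finrank_prod]
    simp [Module.finrank_fintype_fun_eq_card]
    ring
  obtain ⟨e, he⟩ := exists_equiv_of_nonalt (g := G) (g' := modelOdd (sympBilin k F)) hS
    ⟨modelOdd_symm hJS⟩ hN hmN hA ⟨(1, 0), by simp⟩ hfr.symm
  rw [card_isomGroup_congr e he, card_isom_modelOdd sympBilin_nondegenerate sympBilin_isAlt hJS]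
  apply card_isomGroup q hq k _ _ sympBilin_isAlt sympBilin_nondegenerate
  simp [Module.finrank_fintype_fun_eq_card]
  ring

theorem card_isom_even {G : LinearMap.BilinForm F U} (hS : G.IsSymm) (hN : G.Nondegenerate)
    (hA : ∃ x, G x x ≠ 0) {k : ℕ} (hd : finrank F U = 2 * k + 2) {q : ℕ} (hq : Nat.card F = q) :
    Nat.card (IsomGroup G) = q ^ (2 * k + 1) * (q ^ (k ^ 2) * ∏ i ∈ Finset.range k, (q ^ (2 * (i + 1)) - 1)) := by
  have hJS := symm_of_alt (B := sympBilin k F) sympBilin_isAlt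
  have hmN := modelEven_nondeg (J := sympBilin k F) sympBilin_nondegenerate hJS
  have hfr : finrank F (F × F × (Fin k ⊕ Fin k → F)) = finrank F U := by
    rw [hd, Module.finrank_prod, Module.finrank_prod]
    simp [Module.finrank_fintype_fun_eq_card]
    ring
  obtain ⟨e, he⟩ := exists_equiv_of_nonalt (g := G) (g' := modelEven (sympBilin k F)) hS
    ⟨modelEven_symm hJS⟩ hN hmN hA ⟨(0, 1, 0), by simp⟩ hfr.symm
  rw [card_isomGroup_congr e he, card_isom_modelEven sympBilin_nondegenerate sympBilin_isAlt hJS]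
  have h1 := card_isomGroup q hq k _ (sympBilin k F) sympBilin_isAlt sympBilin_nondegenerate
    (by simp [Module.finrank_fintype_fun_eq_card]; ring)
  have h2 : Nat.card (Fin k ⊕ Fin k → F) = q ^ (2 * k) := by
    rw [Nat.card_fun, hq]
    simp [Nat.card_eq_fintype_card]
    ring_nf
  rw [h1, h2, hq, pow_succ]
  ring

end Nonalt

theorem mem_centralizer_iff' (t g : symplecticGroup (Fin m) F) :
    g ∈ Subgroup.centralizer ({t} : Set (symplecticGroup (Fin m) F)) ↔
      spEquivIsom g ∈ cen (sympBilin m F) (nMap (t : Mt m F)) := by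
  rw [Subgroup.mem_centralizer_singleton_iff, mem_cen]
  constructor
  · intro h x
    have h1 : (g : Mt m F) * (t : Mt m F) = (t : Mt m F) * (g : Mt m F) := congrArg Subtype.val h
    rw [nMap_apply, nMap_apply, spEquivIsom_apply, spEquivIsom_apply, mulVec_sub, mulVec_mulVec,
      mulVec_mulVec, h1]
  · intro h
    apply Subtype.ext
    apply Matrix.toLin'.injective
    apply LinearMap.ext
    intro x
    have h1 := h x
    rw [nMap_apply, nMap_apply, spEquivIsom_apply, spEquivIsom_apply, mulVec_sub, mulVec_mulVec,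
      mulVec_mulVec, sub_left_inj] at h1
    simpa [Matrix.toLin'_apply] using h1

variable [Fintype F] [CharP F 2] {q : ℕ}

/-- The order of the centralizer in terms of the isometry group of the form on the image. -/
theorem card_centralizer (hF : Fintype.card F = q) {s : ℕ} (t : symplecticGroup (Fin m) F)
    (hN : IsSqZeroAdj (sympBilin m F) (nMap (t : Mt m F)))
    (hs : ((t : Mt m F) - 1).rank = s)
    {G : LinearMap.BilinForm F (LinearMap.range (nMap (t : Mt m F)))}
    (hG : ∀ (x : Fin m ⊕ Fin m → F) (u : LinearMap.range (nMap (t : Mt m F))),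
      G ((nMap (t : Mt m F)).rangeRestrict x) u = sympBilin m F x u) :
    s ≤ m ∧ Nat.card (Subgroup.centralizer ({t} : Set (symplecticGroup (Fin m) F))) =
      q ^ (s * (s + 1) / 2 + 2 * s * (m - s)) *
        (q ^ ((m - s) ^ 2) * ∏ i ∈ Finset.range (m - s), (q ^ (2 * (i + 1)) - 1)) * Nat.card (IsomGroup G) := by
  classical
  have hq : Nat.card F = q := by rw [Nat.card_eq_fintype_card, hF]
  have hq2 : 2 ≤ q := by
    rw [← hF]
    exact Fintype.one_lt_card
  have hrk : Module.finrank F (Fin m ⊕ Fin m → F) = 2 * m := by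
    simp [Module.finrank_fintype_fun_eq_card]
    ring
  have hsU : finrank F (LinearMap.range (nMap (t : Mt m F))) = s := by
    rw [← hs, rank_eq]
  have hsm : s ≤ m := by
    have := two_mul_finrank_range_le sympBilin_nondegenerate hN
    rw [hsU, hrk] at this
    omega
  refine ⟨hsm, ?_⟩
  have hW : ∀ u ∈ LinearMap.range (nMap (t : Mt m F)), ∀ v ∈ LinearMap.range (nMap (t : Mt m F)),
      sympBilin m F u v = 0 := by
    rintro _ ⟨x, rfl⟩ _ ⟨y, rfl⟩
    exact hN.ts x y
  have key := card_stabSub_mul (B := sympBilin m F) sympBilin_isAlt sympBilin_nondegenerate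
    (⟨LinearMap.range (nMap (t : Mt m F)), hsU, fun u hu v hv => hW u hu v hv⟩ : IsoSub (sympBilin m F) s)
  rw [Nat.card_congr (spEquivIsom (m := m) (F := F)).symm.toEquiv, card_symplecticGroup hq, hq, hrk] at key
  have hst := parabolic_arith hq2 hsm key
  have h1 := card_cen_mul sympBilin_nondegenerate sympBilin_isAlt hN hG
  have h2 : Nat.card (LinearMap.range (nMap (t : Mt m F)) ≃ₗ[F] LinearMap.range (nMap (t : Mt m F))) =
      ∏ i : Fin s, (q ^ s - q ^ (i : ℕ)) := by
    rw [card_linearEquiv hsU, hF]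
  have hcen : Nat.card (Subgroup.centralizer ({t} : Set (symplecticGroup (Fin m) F))) =
      Nat.card (cen (sympBilin m F) (nMap (t : Mt m F))) :=
    Nat.card_congr ((spEquivIsom (m := m) (F := F)).toEquiv.subtypeEquiv (mem_centralizer_iff' t))
  have hpos : 0 < ∏ i : Fin s, (q ^ s - q ^ (i : ℕ)) := by
    apply Finset.prod_pos
    intro i _
    exact Nat.sub_pos_of_lt (Nat.pow_lt_pow_right (by omega) i.2)
  rw [hcen]
  rw [h2, hst] at h1
  apply Nat.eq_of_mul_eq_mul_right hpos
  rw [h1]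
  ring

/-- The exponent identity. -/
theorem exp_eq {m s : ℕ} (h : s ≤ m) :
    2 * m * s - (3 * s ^ 2 - s) / 2 = s * (s + 1) / 2 + 2 * s * (m - s) := by
  obtain ⟨r, rfl⟩ : ∃ r, m = s + r := ⟨m - s, by omega⟩
  have hr : s + r - s = r := by omega
  rw [hr]
  obtain ⟨T, hT⟩ : ∃ T, s * (s + 1) = 2 * T := by
    obtain ⟨T, hT⟩ := Nat.even_mul_succ_self s
    exact ⟨T, by omega⟩
  have e1 : s * (s + 1) / 2 = T := by
    rw [hT]
    simp
  have hA : s ^ 2 + s = 2 * T := by
    rw [← hT]
    ring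
  have e2 : (3 * s ^ 2 - s) / 2 = 2 * s ^ 2 - T := by omega
  rw [e1, e2]
  have e3 : 2 * (s + r) * s = 2 * s ^ 2 + 2 * (r * s) := by ring
  have e4 : 2 * s * r = 2 * (r * s) := by ring
  rw [e3, e4]
  have : T ≤ 2 * s ^ 2 := by
    nlinarith
  omega

theorem exp_eq' {m s : ℕ} (h : s ≤ m) (h1 : 1 ≤ s) :
    2 * m * s - (3 * s ^ 2 - 3 * s) / 2 - 1 = s * (s + 1) / 2 + 2 * s * (m - s) + (s - 1) := by
  obtain ⟨r, rfl⟩ : ∃ r, m = s + r := ⟨m - s, by omega⟩
  have hr : s + r - s = r := by omega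
  rw [hr]
  obtain ⟨T, hT⟩ : ∃ T, s * (s + 1) = 2 * T := by
    obtain ⟨T, hT⟩ := Nat.even_mul_succ_self s
    exact ⟨T, by omega⟩
  have e1 : s * (s + 1) / 2 = T := by
    rw [hT]
    simp
  have hA : s ^ 2 + s = 2 * T := by
    rw [← hT]
    ring
  have hle : s ≤ s ^ 2 := by nlinarith
  have e2 : (3 * s ^ 2 - 3 * s) / 2 = 2 * s ^ 2 - T - s := by omega
  rw [e1, e2]
  have e3 : 2 * (s + r) * s = 2 * s ^ 2 + 2 * (r * s) := by ring
  have e4 : 2 * s * r = 2 * (r * s) := by ring
  rw [e3, e4]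
  omega

end Cfsg.Agent.Lib.Classical.InvCent.Sp
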