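import Mathlib
import Cfsg.Agent.Lib.Classical.InvCent.Torsor
import Cfsg.Agent.Lib.Classical.InvCent.Sp

/-!
# Centralizers of involutions in `Ω⁺_{2m}(q)`, `q` even

The centralizer in `Ω` compared with the centralizer in the symplectic group of the polar form.
-/

set_option autoImplicit false
set_option linter.unusedSectionVars false
set_option linter.unusedVariables false
set_option linter.style.haveILetI false

namespace Cfsg.Agent.Lib.Classical.InvCent.OPlus

open Matrix QuadraticMap Module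
open Cfsg.Agent.Lib.Classical.Orth.Basic Cfsg.Agent.Lib.Classical.Orth.Dickson
open Cfsg.Agent.Lib.Classical.Orth.Classes
open Cfsg.Agent.Lib.Classical.Witt.InvolChar2
open Cfsg.Agent.Lib.Classical.Witt.TS (IsTS)
open Cfsg.Agent.Lib.Classical.Symp.AltForm Cfsg.Agent.Lib.Classical.Symp.InvolChar2
open Cfsg.Agent.Lib.Classical.InvCent.Core Cfsg.Agent.Lib.Classical.InvCent.Torsor
open Cfsg.Agent.Lib.Linalg.Bridge

variable {ι : Type} [Fintype ι] [DecidableEq ι] {F : Type*} [Field F]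
variable {Q : QuadraticForm F (ι → F)}

/-- The centralizer in the orthogonal group. -/
abbrev CO (x : ↥(Cfsg.isometryGroup F (⇑Q))) : Type _ := {g : ↥(Cfsg.isometryGroup F (⇑Q)) // g * x = x * g}

/-- The centralizer in `Ω`. -/
abbrev COm (x : ↥(Cfsg.isometryGroup F (⇑Q))) : Type _ :=
  {g : ↥(Cfsg.Omega F (⇑Q)) // (g : ↥(Cfsg.isometryGroup F (⇑Q))) * x = x * (g : ↥(Cfsg.isometryGroup F (⇑Q)))}

theorem comm_iff (g x : ↥(Cfsg.isometryGroup F (⇑Q))) :
    g * x = x * g ↔ ∀ y, act g (nM x y) = nM x (act g y) := by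
  constructor
  · intro h y
    rw [nM_apply, nM_apply, act_sub, ← act_mul, ← act_mul, h]
  · intro h
    apply ext_act
    intro y
    have := h y
    rw [nM_apply, nM_apply, act_sub, sub_left_inj, ← act_mul, ← act_mul] at this
    exact this

theorem card_CO_eq (x : ↥(Cfsg.isometryGroup F (⇑Q))) : Nat.card (CO x) = Nat.card (cenO Q (nM x)) := by
  apply Nat.card_congr
  exact {
    toFun := fun g => ⟨⟨⟨equivOfGL ((g.1 : GL ι F)), fun a b => polar_act g.1 a b⟩, (comm_iff g.1 x).1 g.2⟩,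
      fun y => Q_act g.1 y⟩
    invFun := fun h => ⟨⟨glOfEquiv (h.1.1.1), (mem_isometryGroup_iff Q _).2 (fun y => by
        rw [glOfEquiv_mulVec]
        exact h.2 y)⟩, (comm_iff _ x).2 (fun y => by
        change ((glOfEquiv (h.1.1.1) : GL ι F) : Matrix ι ι F) *ᵥ _ = nM x (((glOfEquiv (h.1.1.1) : GL ι F) : Matrix ι ι F) *ᵥ y)
        rw [glOfEquiv_mulVec, glOfEquiv_mulVec]
        exact h.1.2 y)⟩
    left_inv := fun g => Subtype.ext (Subtype.ext (glOfEquiv_equivOfGL _))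
    right_inv := fun h => Subtype.ext (Subtype.ext (Subtype.ext (equivOfGL_glOfEquiv _))) }

section Sign

variable [Fintype F] [CharP F 2]

theorem reflection_comm (x : ↥(Cfsg.isometryGroup F (⇑Q))) {w : ι → F} (hw : Q w ≠ 0) (hNw : nM x w = 0) :
    reflectionIso Q w hw * x = x * reflectionIso Q w hw := by
  have hfix : act x w = w := by
    rw [nM_apply, sub_eq_zero] at hNw
    exact hNw
  have hp : ∀ y, polar (⇑Q) w (act x y) = polar (⇑Q) w y := by
    intro y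
    have := polar_act x w y
    rwa [hfix] at this
  apply ext_act
  intro y
  rw [act_mul, act_mul, reflectionIso_act, reflectionIso_act, act_sub, act_smul, hfix, hp]

theorem card_CO_eq_two_mul (hQ : (polarBilin Q).Nondegenerate)
    (hF : (∃ c : F, c ≠ 0 ∧ c ≠ 1) ∨ Fintype.card ι ≠ 4)
    (x : ↥(Cfsg.isometryGroup F (⇑Q))) {w : ι → F} (hw : Q w ≠ 0) (hNw : nM x w = 0) :
    Nat.card (CO x) = 2 * Nat.card (COm x) := by
  classical
  haveI : Finite ↥(Cfsg.isometryGroup F (⇑Q)) := by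
    haveI : Finite (GL ι F) := inferInstance
    infer_instance
  set C := Subgroup.centralizer ({x} : Set ↥(Cfsg.isometryGroup F (⇑Q))) with hC
  have e1 : Nat.card (CO x) = Nat.card C := by
    apply Nat.card_congr
    apply Equiv.subtypeEquivRight
    intro g
    rw [hC, Subgroup.mem_centralizer_singleton_iff]
  set φ : C →* ℤˣ := (dicksonHom hQ hF).comp C.subtype with hφ
  have e2 : Nat.card φ.ker = Nat.card (COm x) := by
    apply Nat.card_congr
    exact {
      toFun := fun k => ⟨⟨k.1.1, (mem_omega_iff_char_two hQ hF _).2 k.2⟩,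
        (Subgroup.mem_centralizer_singleton_iff.1 k.1.2)⟩
      invFun := fun g => ⟨⟨g.1.1, Subgroup.mem_centralizer_singleton_iff.2 g.2⟩,
        (mem_omega_iff_char_two hQ hF _).1 g.1.2⟩
      left_inv := fun k => rfl
      right_inv := fun g => rfl }
  have hsurj : Function.Surjective φ := by
    intro u
    rcases Int.units_eq_one_or u with rfl | rfl
    · exact ⟨1, map_one φ⟩
    · exact ⟨⟨reflectionIso Q w hw, Subgroup.mem_centralizer_singleton_iff.2 (reflection_comm x hw hNw)⟩,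
        dicksonHom_reflection hQ hF w hw⟩
  have h3 := card_eq_of_fibers φ.ker φ hsurj (fun g g' => by
    rw [MonoidHom.mem_ker, map_mul, map_inv, mul_inv_eq_one])
  rw [e1, h3, e2, Nat.card_eq_fintype_card (α := ℤˣ), Fintype.card_units_int, mul_comm]

theorem card_COm_eq_CO (hQ : (polarBilin Q).Nondegenerate)
    (hF : (∃ c : F, c ≠ 0 ∧ c ≠ 1) ∨ Fintype.card ι ≠ 4) {m : ℕ} (hV : Fintype.card ι = 2 * m)
    (x : ↥(Cfsg.isometryGroup F (⇑Q))) (hU : IsTS Q (LinearMap.range (nM x)))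
    (hUm : finrank F (LinearMap.range (nM x)) = m) :
    Nat.card (COm x) = Nat.card (CO x) := by
  have hstab : ∀ g : CO x, g.1 ∈ Cfsg.Omega F (⇑Q) := by
    intro g
    rw [← class_iff_omega hQ hF hV hU hUm g.1]
    have hle : gMap g.1 (LinearMap.range (nM x)) ≤ LinearMap.range (nM x) := by
      rintro _ ⟨_, ⟨y, rfl⟩, rfl⟩
      refine ⟨act g.1 y, ?_⟩
      exact ((comm_iff g.1 x).1 g.2 y).symm
    have heq : gMap g.1 (LinearMap.range (nM x)) = LinearMap.range (nM x) :=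
      Submodule.eq_of_le_of_finrank_eq hle (finrank_gMap _ _)
    rw [heq, inf_idem, hUm, Nat.sub_self]
    exact Even.zero
  apply Nat.card_congr
  exact {
    toFun := fun g => ⟨g.1.1, g.2⟩
    invFun := fun g => ⟨⟨g.1, hstab g⟩, g.2⟩
    left_inv := fun g => rfl
    right_inv := fun g => rfl }

variable {m : ℕ} {M : Submodule F (ι → F)}

theorem finrank_V (hV : Fintype.card ι = 2 * m) : finrank F (ι → F) = 2 * m := by
  rw [Module.finrank_fintype_fun_eq_card, hV]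

/-- Comparison when `Q` does not vanish on the image. -/
theorem main_nonalt (hQ : (polarBilin Q).Nondegenerate)
    (hF : (∃ c : F, c ≠ 0 ∧ c ≠ 1) ∨ Fintype.card ι ≠ 4) (hV : Fintype.card ι = 2 * m)
    (hM : IsTS Q M) (hMm : finrank F M = m)
    (x : ↥(Cfsg.isometryGroup F (⇑Q))) (hx : x * x = 1) (hna : ∃ y, Q (nM x y) ≠ 0) {q s : ℕ}
    (hq : Nat.card F = q) (hs : finrank F (LinearMap.range (nM x)) = s) :
    Nat.card (cen (polarBilin Q) (nM x)) = Nat.card (COm x) * q ^ (2 * m - s) := by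
  have hN := isQuadN_nM hx
  have hV' := finrank_V (F := F) hV
  have h1 := card_cen_eq hQ hN hV' hM hMm
  have h2 := two_mul_card_TT_nonalt hN hna
  have h3 := card_ker_eq (N := nM x) hq hV' hs
  obtain ⟨y₀, hy₀⟩ := hna
  have h4 := card_CO_eq_two_mul hQ hF x hy₀ (hN.adj.sq y₀)
  have h5 := card_CO_eq x
  rw [h1, ← h5, h4, ← h3, ← h2]
  ring

/-- Comparison when `Q` vanishes on the image, `s < m`. -/
theorem main_alt_lt (hQ : (polarBilin Q).Nondegenerate)
    (hF : (∃ c : F, c ≠ 0 ∧ c ≠ 1) ∨ Fintype.card ι ≠ 4) (hV : Fintype.card ι = 2 * m)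
    (hM : IsTS Q M) (hMm : finrank F M = m)
    (x : ↥(Cfsg.isometryGroup F (⇑Q))) (hx : x * x = 1) (halt : ∀ y, Q (nM x y) = 0) {q s : ℕ}
    (hq : Nat.card F = q) (hs : finrank F (LinearMap.range (nM x)) = s) (hsm : s < m) :
    Nat.card (cen (polarBilin Q) (nM x)) = Nat.card (COm x) * (q ^ (2 * m - s) + q ^ m) := by
  have hN := isQuadN_nM hx
  have hV' := finrank_V (F := F) hV
  have h1 := card_cen_eq hQ hN hV' hM hMm
  have hU : IsTS Q (LinearMap.range (nM x)) := by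
    rintro _ ⟨y, rfl⟩
    exact halt y
  obtain ⟨L, hUL, hL, hLm⟩ := exists_lagrangian_over hQ hV' hM hMm hU
  have h2 := two_mul_card_TT_alt hQ hN hV' hUL hL hLm
  have h3 := card_ker_eq (N := nM x) hq hV' hs
  have h3' : Nat.card L = q ^ m := by
    rw [Module.natCard_eq_pow_finrank (K := F), hq, hLm]
  have hk : m < finrank F (LinearMap.ker (nM x)) := by
    have := LinearMap.finrank_range_add_finrank_ker (nM x)
    rw [hs, hV'] at this
    omega
  obtain ⟨w, hwK, hw⟩ := exists_nonsingular_of_large hQ hV' hk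
  have h4 := card_CO_eq_two_mul hQ hF x hw (LinearMap.mem_ker.1 hwK)
  have h5 := card_CO_eq x
  rw [h1, ← h5, h4, ← h3, ← h3', ← h2]
  ring

/-- Comparison when `Q` vanishes on the image, `s = m`. -/
theorem main_alt_eq (hQ : (polarBilin Q).Nondegenerate)
    (hF : (∃ c : F, c ≠ 0 ∧ c ≠ 1) ∨ Fintype.card ι ≠ 4) (hV : Fintype.card ι = 2 * m)
    (hM : IsTS Q M) (hMm : finrank F M = m)
    (x : ↥(Cfsg.isometryGroup F (⇑Q))) (hx : x * x = 1) (halt : ∀ y, Q (nM x y) = 0) {q : ℕ}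
    (hq : Nat.card F = q) (hs : finrank F (LinearMap.range (nM x)) = m) :
    Nat.card (cen (polarBilin Q) (nM x)) = Nat.card (COm x) * q ^ m := by
  have hN := isQuadN_nM hx
  have hV' := finrank_V (F := F) hV
  have h1 := card_cen_eq hQ hN hV' hM hMm
  have hU : IsTS Q (LinearMap.range (nM x)) := by
    rintro _ ⟨y, rfl⟩
    exact halt y
  have h2 := two_mul_card_TT_alt hQ hN hV' le_rfl hU hs
  have h3 := card_ker_eq (N := nM x) hq hV' hs
  have h3' : Nat.card (LinearMap.range (nM x)) = q ^ m := by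
    rw [Module.natCard_eq_pow_finrank (K := F), hq, hs]
  have h4 := card_COm_eq_CO hQ hF hV x hU hs
  have h5 := card_CO_eq x
  have h6 : 2 * m - m = m := by omega
  rw [h6] at h3
  rw [h3, h3'] at h2
  have h7 : Nat.card (TT Q (nM x)) = q ^ m := by omega
  rw [h1, ← h5, ← h4, h7]

end Sign

section Plus

open Cfsg.Agent.Lib.Classical.Orth.Models
open Cfsg.Agent.Lib.Classical.Symp.Basic Cfsg.Agent.Lib.Classical.Symp.Count
open Cfsg.Agent.Lib.Classical.Symp.InvolChar2Mat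
open Cfsg.Agent.Lib.Classical.InvCent.Sp

variable {m : ℕ}

omit [Fintype ι] [DecidableEq ι] in
theorem polarBilin_plusForm [CharP F 2] : polarBilin (plusForm m F) = sympBilin m F := by
  have h2 : (2 : F) = 0 := two_eq_zero' F
  refine LinearMap.ext₂ (fun u v => ?_)
  rw [polarBilin_apply_apply, sympBilin_apply, sympForm_apply, polar, coe_plusForm]
  simp only [Cfsg.quadFormPlus, Pi.add_apply, ← Finset.sum_sub_distrib]
  apply Finset.sum_congr rfl
  intro i _
  linear_combination (u (Sum.inl i) * v (Sum.inr i)) * h2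

/-- The symplectic element with the same matrix. -/
theorem exists_sp [CharP F 2] (x : ↥(Cfsg.isometryGroup F (⇑(plusForm m F)))) :
    ∃ t : symplecticGroup (Fin m) F, (t : Mt m F) = ((x : GL (Fin m ⊕ Fin m) F) : Mt m F) := by
  refine ⟨⟨((x : GL (Fin m ⊕ Fin m) F) : Mt m F), ?_⟩, rfl⟩
  rw [mem_symplecticGroup_iff_forall]
  intro u v
  rw [← sympBilin_apply, ← sympBilin_apply, ← polarBilin_plusForm]
  exact polar_act x u v

theorem card_centralizer_eq [Fintype F] [CharP F 2] (x : ↥(Cfsg.isometryGroup F (⇑(plusForm m F))))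
    (t : symplecticGroup (Fin m) F) (ht : (t : Mt m F) = ((x : GL (Fin m ⊕ Fin m) F) : Mt m F)) :
    Nat.card (Subgroup.centralizer ({t} : Set (symplecticGroup (Fin m) F))) =
      Nat.card (cen (polarBilin (plusForm m F)) (nM x)) := by
  have e : nM x = nMap (t : Mt m F) := by
    rw [ht]
  rw [polarBilin_plusForm, e]
  exact Nat.card_congr ((spEquivIsom (m := m) (F := F)).toEquiv.subtypeEquiv (mem_centralizer_iff' t))

theorem exists_hF [Fintype F] [CharP F 2] (h : Fintype.card F ≠ 2 ∨ m ≠ 2) :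
    (∃ c : F, c ≠ 0 ∧ c ≠ 1) ∨ Fintype.card (Fin m ⊕ Fin m) ≠ 4 := by
  rcases h with h | h
  · exact Or.inl (Cfsg.Agent.Lib.Classical.Orth.CartanDieudonne.exists_ne_zero_one_of_card h)
  · right
    rw [card_plus]
    omega

/-- `Q (N v) = sympForm v (t v)` -/
theorem Q_nM_eq [CharP F 2] {x : ↥(Cfsg.isometryGroup F (⇑(plusForm m F)))} (hx : x * x = 1)
    {t : symplecticGroup (Fin m) F} (ht : (t : Mt m F) = ((x : GL (Fin m ⊕ Fin m) F) : Mt m F))
    (v : Fin m ⊕ Fin m → F) :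
    plusForm m F (nM x v) = Cfsg.sympForm m F v ((t : Mt m F).mulVec v) := by
  rw [(isQuadN_nM hx).val, polar_nM, ← sympBilin_apply, ← polarBilin_plusForm, ht]
  rfl

theorem s_le_m [Fintype F] [CharP F 2] {x : ↥(Cfsg.isometryGroup F (⇑(plusForm m F)))} (hx : x * x = 1) :
    finrank F (LinearMap.range (nM x)) ≤ m := by
  have := two_mul_finrank_range_le (plusForm_nondegenerate m) (isQuadN_nM hx).adj
  rw [Cfsg.Agent.Lib.Classical.Witt.PlusForm.finrank_plus] at this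
  omega

theorem sq_of_sp [CharP F 2] {x : ↥(Cfsg.isometryGroup F (⇑(plusForm m F)))} (hx : x * x = 1)
    {t : symplecticGroup (Fin m) F} (ht : (t : Mt m F) = ((x : GL (Fin m ⊕ Fin m) F) : Mt m F)) :
    t ^ 2 = 1 := by
  apply Subtype.ext
  rw [pow_two]
  change (t : Mt m F) * (t : Mt m F) = 1
  rw [ht]
  have := congrArg (fun g : ↥(Cfsg.isometryGroup F (⇑(plusForm m F))) => ((g : GL (Fin m ⊕ Fin m) F) : Mt m F)) hx
  simpa using this

/-- The exponent identities. -/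
theorem exp_b {m s : ℕ} (h : s ≤ m) (h1 : 1 ≤ s) :
    2 * m * (s - 1) - (3 * s ^ 2 - 3 * s) / 2 + (2 * m - s) = 2 * m * s - (3 * s ^ 2 - s) / 2 := by
  obtain ⟨r, rfl⟩ : ∃ r, m = s + r := ⟨m - s, by omega⟩
  obtain ⟨k, rfl⟩ : ∃ k, s = k + 1 := ⟨s - 1, by omega⟩
  obtain ⟨T, hT⟩ : ∃ T, (k + 1) * (k + 1 + 1) = 2 * T := by
    obtain ⟨T, hT⟩ := Nat.even_mul_succ_self (k + 1)
    exact ⟨T, by omega⟩
  have hA : (k + 1) ^ 2 + (k + 1) = 2 * T := by
    rw [← hT]
    ring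
  have hk : k + 1 ≤ T := by nlinarith
  have e1 : (3 * (k + 1) ^ 2 - (k + 1)) / 2 = 2 * (k + 1) ^ 2 - T := by omega
  have e2 : (3 * (k + 1) ^ 2 - 3 * (k + 1)) / 2 = 2 * (k + 1) ^ 2 - T - (k + 1) := by omega
  rw [e1, e2, Nat.add_sub_cancel]
  have e3 : 2 * (k + 1 + r) * k = 2 * (k + 1) ^ 2 - 2 * (k + 1) + 2 * (r * (k + 1)) - 2 * r := by
    have : 2 * (k + 1) ^ 2 = 2 * k ^ 2 + 4 * k + 2 := by ring
    have h5 : 2 * (r * (k + 1)) = 2 * (r * k) + 2 * r := by ring
    have h6 : 2 * (k + 1 + r) * k = 2 * k ^ 2 + 2 * k + 2 * (r * k) := by ring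
    omega
  have e4 : 2 * (k + 1 + r) * (k + 1) = 2 * (k + 1) ^ 2 + 2 * (r * (k + 1)) := by ring
  rw [e3, e4]
  have h7 : 2 * r ≤ 2 * (r * (k + 1)) := by nlinarith
  have h8 : T ≤ 2 * (k + 1) ^ 2 := by nlinarith
  have h9 : 2 * (k + 1) ≤ 2 * (k + 1) ^ 2 := by nlinarith
  omega

theorem exp_c {m s : ℕ} (h : s ≤ m) (h1 : 2 ≤ s) :
    2 * m * (s - 1) - (3 * s ^ 2 - 5 * s) / 2 - 1 + (2 * m - s) = 2 * m * s - (3 * s ^ 2 - 3 * s) / 2 - 1 := by
  obtain ⟨r, rfl⟩ : ∃ r, m = s + r := ⟨m - s, by omega⟩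
  obtain ⟨k, rfl⟩ : ∃ k, s = k + 2 := ⟨s - 2, by omega⟩
  obtain ⟨T, hT⟩ : ∃ T, (k + 2) * (k + 2 + 1) = 2 * T := by
    obtain ⟨T, hT⟩ := Nat.even_mul_succ_self (k + 2)
    exact ⟨T, by omega⟩
  have hA : (k + 2) ^ 2 + (k + 2) = 2 * T := by
    rw [← hT]
    ring
  have hk : 2 * (k + 2) ≤ 2 * T := by nlinarith
  have hk3 : 3 ≤ T := by nlinarith
  have hk4 : 5 * (k + 2) ≤ 3 * (k + 2) ^ 2 := by nlinarith
  have e1 : (3 * (k + 2) ^ 2 - 5 * (k + 2)) / 2 = 2 * (k + 2) ^ 2 - T - 2 * (k + 2) := by omega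
  have e2 : (3 * (k + 2) ^ 2 - 3 * (k + 2)) / 2 = 2 * (k + 2) ^ 2 - T - (k + 2) := by omega
  rw [e1, e2]
  have e5 : k + 2 - 1 = k + 1 := by omega
  rw [e5]
  have e3 : 2 * (k + 2 + r) * (k + 1) + 2 * (k + 2) + 2 * r = 2 * (k + 2) ^ 2 + 2 * (r * (k + 2)) := by ring
  have e4 : 2 * (k + 2 + r) * (k + 2) = 2 * (k + 2) ^ 2 + 2 * (r * (k + 2)) := by ring
  rw [e4]
  have h7 : 2 * r ≤ 2 * (r * (k + 2)) := by nlinarith
  have h8 : T ≤ 2 * (k + 2) ^ 2 := by nlinarith
  have h9 : 2 * (k + 2) ≤ 2 * (k + 2) ^ 2 := by nlinarith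
  omega

theorem exp_a {m s : ℕ} (h : s ≤ m) :
    2 * m * s - (3 * s ^ 2 - s) / 2 = 2 * m * s - (3 * s ^ 2 + s) / 2 + s := by
  obtain ⟨r, rfl⟩ : ∃ r, m = s + r := ⟨m - s, by omega⟩
  obtain ⟨T, hT⟩ : ∃ T, s * (s + 1) = 2 * T := by
    obtain ⟨T, hT⟩ := Nat.even_mul_succ_self s
    exact ⟨T, by omega⟩
  have hA : s ^ 2 + s = 2 * T := by
    rw [← hT]
    ring
  have h9 : s ≤ s ^ 2 := by nlinarith
  have e1 : (3 * s ^ 2 - s) / 2 = 2 * s ^ 2 - T := by omega
  have e2 : (3 * s ^ 2 + s) / 2 = 2 * s ^ 2 - T + s := by omega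
  rw [e1, e2]
  have e4 : 2 * (s + r) * s = 2 * s ^ 2 + 2 * (r * s) := by ring
  rw [e4]
  have h8 : T ≤ 2 * s ^ 2 := by nlinarith
  omega

end Plus

end Cfsg.Agent.Lib.Classical.InvCent.OPlus
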