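import Mathlib
import Cfsg.Agent.Lib.Classical.InvCent.FormsInv
import Cfsg.Agent.Lib.Classical.Elusive.SpPairsMain
import Cfsg.Agent.Lib.Classical.Elusive.NonSingMain
import Cfsg.Agent.Lib.Classical.InvCent.OPlus
import Cfsg.Prelude.Def_GeometricClasses
import Cfsg.Prelude.Def_ClassicalGeometry

/-!
# Elements of prime order of `Sp_{2d}(q)`, `q` even, and the orthogonal groups `O^±_{2d}(q)`
-/

set_option autoImplicit false
set_option linter.unusedSectionVars false
set_option linter.unusedVariables false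
set_option linter.style.haveILetI false

namespace Cfsg.Agent.Lib.Classical.InvCent.SpOrth

open scoped MatrixGroups
open Module QuadraticMap Matrix Cfsg
open Cfsg.Agent.Lib.Classical.Symp.Basic Cfsg.Agent.Lib.Classical.Symp.InvolChar2
open Cfsg.Agent.Lib.Classical.Symp.AltForm Cfsg.Agent.Lib.Classical.Symp.InvolChar2Mat
open Cfsg.Agent.Lib.Classical.InvCent.Torsor Cfsg.Agent.Lib.Classical.InvCent.Forms
open Cfsg.Agent.Lib.Classical.InvCent.FormsInv
open Cfsg.Agent.Lib.Linalg.Bridge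
open Cfsg.Agent.Lib.Classical.Elusive.Inv Cfsg.Agent.Lib.Classical.Elusive.SpModel
open Cfsg.Agent.Lib.Classical.Orth.Basic Cfsg.Agent.Lib.Classical.Orth.Models

universe u

variable {F : Type u} [Field F] {d : ℕ}

theorem mem_spGL_iff {x : GL (Fin d ⊕ Fin d) F} :
    x ∈ spGL d F ↔ ∀ u v, sympForm d F ((x : Mt d F) *ᵥ u) ((x : Mt d F) *ᵥ v) = sympForm d F u v := Iff.rfl

theorem exists_form_ne (hd : 1 ≤ d) : ∃ u v : Fin d ⊕ Fin d → F, sympForm d F u v ≠ 0 := by
  have hne : (Pi.single (Sum.inl ⟨0, by omega⟩) 1 : Fin d ⊕ Fin d → F) ≠ 0 := by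
    intro h
    have := congrFun h (Sum.inl ⟨0, by omega⟩)
    simp at this
  by_contra hcon
  push Not at hcon
  exact hne (sympBilin_nondegenerate.1 _ (fun y => by rw [sympBilin_apply]; exact hcon _ _))

/-- The symplectic group element as an element of `GL`. -/
def glOfSp (a : symplecticGroup (Fin d) F) : GL (Fin d ⊕ Fin d) F :=
  ⟨a.1, (a⁻¹ : symplecticGroup (Fin d) F).1,
    by
      have h := congrArg Subtype.val (mul_inv_cancel a)
      exact h,
    by
      have h := congrArg Subtype.val (inv_mul_cancel a)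
      exact h⟩

theorem glOfSp_val (a : symplecticGroup (Fin d) F) : ((glOfSp a : GL (Fin d ⊕ Fin d) F) : Mt d F) = a.1 := rfl

theorem glOfSp_mem (a : symplecticGroup (Fin d) F) : glOfSp a ∈ spGL d F :=
  mem_spGL_iff.2 (mem_symplecticGroup_iff_forall.1 a.2)

variable [CharP F 2]

/-- A scalar in the symplectic group is trivial in characteristic two. -/
theorem scalar_eq_one (hd : 1 ≤ d) {x : Mt d F}
    (hx : ∀ u v, sympForm d F (x *ᵥ u) (x *ᵥ v) = sympForm d F u v) {z : F} (hz : x = z • (1 : Mt d F)) : z = 1 := by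
  obtain ⟨u, v, huv⟩ := exists_form_ne (F := F) hd
  have h1 := hx u v
  rw [hz, smul_mulVec, smul_mulVec, one_mulVec, one_mulVec, ← sympBilin_apply, map_smul, map_smul,
    LinearMap.smul_apply, smul_smul, smul_eq_mul, sympBilin_apply] at h1
  have h2 : (z * z - 1) * sympForm d F u v = 0 := by
    rw [sub_mul, h1, one_mul, sub_self]
  have h3 := (mul_eq_zero.1 h2).resolve_right huv
  have h4 : (2 : F) = 0 := two_eq_zero' F
  have h5 : (z + 1) * (z + 1) = 0 := by
    linear_combination h3 + (z + 1) * h4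
  have h6 := mul_self_eq_zero.1 h5
  linear_combination h6 - h4

variable {Q : QuadraticForm F (Fin d ⊕ Fin d → F)}

/-- A similarity of `Q` in the symplectic group is an isometry of `Q`. -/
theorem Q_eq_of_similar (hd : 1 ≤ d) (hQf : ∀ u v, polar (⇑Q) u v = sympForm d F u v) {x : Mt d F}
    (hx : ∀ u v, sympForm d F (x *ᵥ u) (x *ᵥ v) = sympForm d F u v) {c : F} (hc : ∀ v, Q (x *ᵥ v) = c * Q v)
    (v : Fin d ⊕ Fin d → F) : Q (x *ᵥ v) = Q v := by
  obtain ⟨a, b, hab⟩ := exists_form_ne (F := F) hd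
  have h1 := hx a b
  rw [← hQf, ← hQf] at h1
  have h2 : polar (⇑Q) (x *ᵥ a) (x *ᵥ b) = c * polar (⇑Q) a b := by
    simp only [polar, ← mulVec_add, hc]
    ring
  rw [h2] at h1
  have h3 : (c - 1) * polar (⇑Q) a b = 0 := by
    rw [sub_mul, h1, one_mul, sub_self]
  have h4 : polar (⇑Q) a b ≠ 0 := by
    rw [hQf]
    exact hab
  have h5 : c = 1 := sub_eq_zero.1 ((mul_eq_zero.1 h3).resolve_right h4)
  rw [hc, h5, one_mul]

variable [Fintype F]

/-- The index of the orthogonal group in the symplectic group. -/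
theorem relIndex_eq (hQ : (polarBilin Q).Nondegenerate) (hQf : ∀ u v, polar (⇑Q) u v = sympForm d F u v) (hd : 1 ≤ d) :
    (Cfsg.Geo.quadSimilarityGroup (⇑Q)).relIndex (spGL d F) = Nat.card {v // Q v ∈ Rt F} := by
  classical
  haveI : Nonempty (Fin d ⊕ Fin d) := ⟨Sum.inl ⟨0, by omega⟩⟩
  haveI : Nontrivial (Fin d ⊕ Fin d → F) := Function.nontrivial
  haveI : Finite (Fin d ⊕ Fin d → F) := inferInstance
  haveI : Finite ((Fin d ⊕ Fin d → F) ≃ₗ[F] (Fin d ⊕ Fin d → F)) := by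
    apply Finite.of_injective (fun e : (Fin d ⊕ Fin d → F) ≃ₗ[F] (Fin d ⊕ Fin d → F) => (e : (Fin d ⊕ Fin d → F) → (Fin d ⊕ Fin d → F)))
    intro a b h
    ext x
    exact congrFun (congrFun h x) _
  have hiso : ∀ k : GL (Fin d ⊕ Fin d) F, k ∈ spGL d F ↔ equivOfGL k ∈ IsomGroup (polarBilin Q) := by
    intro k
    rw [mem_spGL_iff, mem_isomGroup]
    simp only [polarBilin_apply_apply, hQf, equivOfGL_apply]
  let φ : spGL d F ≃ IsomGroup (polarBilin Q) :=
    { toFun := fun k => ⟨equivOfGL k.1, (hiso _).1 k.2⟩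
      invFun := fun g => ⟨glOfEquiv g.1, (hiso _).2 (by rw [equivOfGL_glOfEquiv]; exact g.2)⟩
      left_inv := fun k => Subtype.ext (glOfEquiv_equivOfGL _)
      right_inv := fun g => Subtype.ext (equivOfGL_glOfEquiv _) }
  have h1 : Nat.card (spGL d F) = Nat.card (IsomGroup (polarBilin Q)) := Nat.card_congr φ
  have h2 : Nat.card ((Cfsg.Geo.quadSimilarityGroup (⇑Q)).subgroupOf (spGL d F)) = Nat.card (orthSub Q) := by
    refine Nat.card_congr (φ.subtypeEquiv fun k => ?_)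
    rw [Subgroup.mem_subgroupOf, mem_orthSub]
    constructor
    · rintro ⟨c, hc⟩ y
      exact Q_eq_of_similar hd hQf (mem_spGL_iff.1 k.2) hc y
    · intro h
      refine ⟨1, fun v => ?_⟩
      rw [Units.val_one, one_mul]
      exact h v
  have h3 := Subgroup.card_mul_index ((Cfsg.Geo.quadSimilarityGroup (⇑Q)).subgroupOf (spGL d F))
  have h4 := card_isom_eq hQ
  rw [h2, h1, h4] at h3
  have hpos : 0 < Nat.card (orthSub Q) := Nat.card_pos
  exact Nat.eq_of_mul_eq_mul_left hpos h3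

omit [CharP F 2] in
/-- A symplectic element without fixed vectors of odd prime order `r`, if `r ∣ q^d ∓ 1`. -/
theorem exists_fpf {p : ℕ} [Fact p.Prime] [CharP F p] {q : ℕ} (hq : Fintype.card F = q) (hd : 0 < d) {r : ℕ} [Fact r.Prime] (hr2 : r ≠ 2)
    (hrp : r ≠ p) (h : r ∣ q ^ d - 1 ∨ r ∣ q ^ d + 1) :
    ∃ y : symplecticGroup (Fin d) F, (y : Mt d F) ^ r = 1 ∧ ∀ v, (y : Mt d F) *ᵥ v = v → v = 0 := by
  have hr : r.Prime := Fact.out
  have hReal : Reali F r d (2 * d) := by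
    rcases h with h | h
    · have h1 : (q : ZMod r) ^ d = 1 := by
        have hq0 : 1 ≤ q ^ d := Nat.one_le_pow _ _ (by rw [← hq]; exact Fintype.card_pos)
        have h2 : ((q ^ d - 1 : ℕ) : ZMod r) = 0 := (ZMod.natCast_eq_zero_iff _ _).2 h
        rw [Nat.cast_sub hq0] at h2
        push_cast at h2
        exact sub_eq_zero.1 h2
      obtain ⟨k, hk⟩ := orderOf_dvd_of_pow_eq_one h1
      have h3 := (reali_full hq hr hrp).nsmul 0 k
      rw [add_zero, ← hk, mul_assoc, ← hk] at h3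
      exact h3
    · obtain ⟨a, -, hia, -⟩ := Cfsg.Agent.Lib.Classical.Elusive.NonSingMain.exists_half hr hr2 h hd
      obtain ⟨b, hb, hb0, -, hbr⟩ := Cfsg.Agent.Lib.Classical.Elusive.SpPairsMain.arith hr2 hd h
      have h3 := (reali_half hq hr hrp hb hb0 hbr).nsmul 0 a
      have h4 : b * a = d := by
        rw [hb] at hia
        have : 2 * (b * a) = 2 * d := by rw [← hia]; ring
        omega
      rw [add_zero, h4, mul_assoc, h4] at h3
      exact h3
  obtain ⟨y, hyr, hyF⟩ := hReal.toSp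
  refine ⟨y, hyr, fun v hv => ?_⟩
  have h1 : finrank F (Fix (Matrix.toLin' (y : Mt d F))) = 0 := by omega
  have h2 := Submodule.finrank_eq_zero.1 h1
  have h3 : v ∈ Fix (Matrix.toLin' (y : Mt d F)) := by
    rw [mem_Fix]
    exact hv
  rw [h2] at h3
  exact (Submodule.mem_bot F).1 h3

theorem iterate_equivOfGL (w : GL (Fin d ⊕ Fin d) F) (k : ℕ) (v : Fin d ⊕ Fin d → F) :
    (equivOfGL w)^[k] v = ((w ^ k : GL (Fin d ⊕ Fin d) F) : Mt d F) *ᵥ v := by
  induction k generalizing v with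
  | zero => simp
  | succ k ih =>
    rw [Function.iterate_succ_apply, ih, equivOfGL_apply, mulVec_mulVec, pow_succ, Units.val_mul]

/-- There is a fixed point free element of odd prime order, which cannot be conjugate into `O(Q)` when `r` divides the index. -/
theorem false_of_odd (hQ : (polarBilin Q).Nondegenerate) (hQf : ∀ u v, polar (⇑Q) u v = sympForm d F u v) (hd : 1 ≤ d)
    {q : ℕ} (hq : Fintype.card F = q) {r : ℕ} [Fact r.Prime] (hr2 : r ≠ 2)
    (hΩ : r ∣ (Cfsg.Geo.quadSimilarityGroup (⇑Q)).relIndex (spGL d F))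
    (H : ∀ x ∈ spGL d F, (∃ z : F, ((x ^ r : GL (Fin d ⊕ Fin d) F) : Mt d F) = z • (1 : Mt d F)) →
      (∀ z : F, (x : Mt d F) ≠ z • (1 : Mt d F)) →
      ∃ g ∈ spGL d F, g⁻¹ * x * g ∈ Cfsg.Geo.quadSimilarityGroup (⇑Q)) : False := by
  classical
  have hr : r.Prime := Fact.out
  haveI : Nonempty (Fin d ⊕ Fin d) := ⟨Sum.inl ⟨0, by omega⟩⟩
  haveI : Nontrivial (Fin d ⊕ Fin d → F) := Function.nontrivial
  rw [relIndex_eq hQ hQf hd] at hΩ
  -- the arithmetic
  have hcard : Fintype.card (Fin d ⊕ Fin d → F) = q ^ d * q ^ d := by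
    rw [Fintype.card_fun, Fintype.card_sum, Fintype.card_fin, hq, pow_add]
  have hk1 : 1 ≤ q ^ d := Nat.one_le_pow _ _ (by rw [← hq]; exact Fintype.card_pos)
  have hnd : ¬ r ∣ q ^ d := by
    rw [← hq]
    exact Cfsg.Agent.Lib.Classical.Elusive.NonSingMain.not_dvd_card_pow hr hr2 d
  have hdiv : r ∣ q ^ d - 1 ∨ r ∣ q ^ d + 1 := by
    rcases two_mul_card_eq_or hcard hQ with h | h
    · right
      have h1 : r ∣ q ^ d * (q ^ d + 1) := by
        have : q ^ d * (q ^ d + 1) = 2 * Nat.card {v : Fin d ⊕ Fin d → F // Q v ∈ Rt F} := by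
          rw [h]
          ring
        rw [this]
        exact Dvd.dvd.mul_left hΩ 2
      exact (hr.dvd_mul.1 h1).resolve_left hnd
    · left
      have h1 : r ∣ q ^ d * (q ^ d - 1) := by
        have : q ^ d * (q ^ d - 1) = 2 * Nat.card {v : Fin d ⊕ Fin d → F // Q v ∈ Rt F} := by
          rw [Nat.mul_sub, mul_one]
          omega
        rw [this]
        exact Dvd.dvd.mul_left hΩ 2
      exact (hr.dvd_mul.1 h1).resolve_left hnd
  obtain ⟨y, hyr, hyf⟩ := exists_fpf (p := 2) hq (by omega) hr2 hr2 hdiv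
  -- the element
  have hxr : ((glOfSp y ^ r : GL (Fin d ⊕ Fin d) F) : Mt d F) = (1 : F) • (1 : Mt d F) := by
    rw [one_smul, Units.val_pow_eq_pow_val, glOfSp_val]
    exact hyr
  have hns : ∀ z : F, ((glOfSp y : GL (Fin d ⊕ Fin d) F) : Mt d F) ≠ z • (1 : Mt d F) := by
    intro z hz
    have h1 := scalar_eq_one hd (mem_spGL_iff.1 (glOfSp_mem y)) hz
    rw [h1, one_smul] at hz
    obtain ⟨v, hv⟩ := exists_ne (0 : Fin d ⊕ Fin d → F)
    apply hv
    apply hyf
    have h2 : (y : Mt d F) = 1 := hz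
    rw [h2, one_mulVec]
  obtain ⟨g, hg, c, hc⟩ := H _ (glOfSp_mem y) ⟨1, hxr⟩ hns
  set w : GL (Fin d ⊕ Fin d) F := g⁻¹ * glOfSp y * g with hw
  have hwS : w ∈ spGL d F := mul_mem (mul_mem (inv_mem hg) (glOfSp_mem y)) hg
  have hQw : ∀ v, Q (equivOfGL w v) = Q v := fun v => Q_eq_of_similar hd hQf (mem_spGL_iff.1 hwS) hc v
  have hwr : w ^ r = 1 := by
    have h1 : glOfSp y ^ r = 1 := by
      apply Units.ext
      rw [Units.val_pow_eq_pow_val, glOfSp_val]
      exact hyr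
    have h2 : w = (g⁻¹ : GL (Fin d ⊕ Fin d) F) * glOfSp y * (g⁻¹)⁻¹ := by
      rw [hw, inv_inv]
    rw [h2, conj_pow, h1, mul_one, mul_inv_cancel]
  have hIt : ∀ v, (equivOfGL w)^[r] v = v := by
    intro v
    rw [iterate_equivOfGL, hwr, Units.val_one, one_mulVec]
  have hfix : ∀ v, equivOfGL w v = v → v = 0 := by
    intro v hv
    have h1 : ((glOfSp y : GL (Fin d ⊕ Fin d) F) : Mt d F) *ᵥ ((g : Mt d F) *ᵥ v) = (g : Mt d F) *ᵥ v := by
      have hgw : glOfSp y * g = g * w := by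
        rw [hw]
        group
      rw [mulVec_mulVec, ← Units.val_mul, hgw, Units.val_mul, ← mulVec_mulVec]
      exact congrArg _ hv
    have h3 := hyf _ h1
    have h4 : ((g⁻¹ * g : GL (Fin d ⊕ Fin d) F) : Mt d F) *ᵥ v = 0 := by
      rw [Units.val_mul, ← mulVec_mulVec, h3, mulVec_zero]
    simpa using h4
  have hmod := card_T_modEq r (equivOfGL w) hQw hIt hfix
  have h1 : r ∣ 1 := (hmod.dvd_iff (dvd_refl r)).1 hΩ
  exact hr.one_lt.ne' (Nat.dvd_one.1 h1)

/-- If all involutions are conjugate into `O(Q)` and `d` is even, `Q` has a Lagrangian. -/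
theorem plus_of_elus (hQf : ∀ u v, polar (⇑Q) u v = sympForm d F u v) (hd : 1 ≤ d) (heven : Even d)
    (H : ∀ x ∈ spGL d F, (∃ z : F, ((x ^ 2 : GL (Fin d ⊕ Fin d) F) : Mt d F) = z • (1 : Mt d F)) →
      (∀ z : F, (x : Mt d F) ≠ z • (1 : Mt d F)) →
      ∃ g ∈ spGL d F, g⁻¹ * x * g ∈ Cfsg.Geo.quadSimilarityGroup (⇑Q)) :
    ∃ U : Submodule F (Fin d ⊕ Fin d → F), (∀ w ∈ U, Q w = 0) ∧ finrank F U = d := by
  classical
  obtain ⟨k, hk⟩ := heven
  obtain ⟨t, h1, h2, h3, h4⟩ := Cfsg.Agent.Lib.Classical.Witt.InvolModels.plus_alt (F := F) d k (by omega) (by omega)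
  have hpf : ∀ u v, polar (⇑(plusForm d F)) u v = sympForm d F u v := by
    intro u v
    have := congrArg (fun B : LinearMap.BilinForm F (Fin d ⊕ Fin d → F) => B u v)
      (Cfsg.Agent.Lib.Classical.InvCent.OPlus.polarBilin_plusForm (m := d) (F := F))
    simpa using this
  set x : GL (Fin d ⊕ Fin d) F := (t : GL (Fin d ⊕ Fin d) F) with hx
  have hxS : x ∈ spGL d F := by
    rw [mem_spGL_iff]
    intro u v
    rw [← hpf, ← hpf]
    exact polar_act t u v
  have hxx : x * x = 1 := congrArg Subtype.val h1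
  have hx2 : ((x ^ 2 : GL (Fin d ⊕ Fin d) F) : Mt d F) = (1 : F) • (1 : Mt d F) := by
    rw [one_smul, pow_two, hxx, Units.val_one]
  have hns : ∀ z : F, (x : Mt d F) ≠ z • (1 : Mt d F) := by
    intro z hz
    have h5 := scalar_eq_one hd (mem_spGL_iff.1 hxS) hz
    rw [h5, one_smul] at hz
    apply h2
    apply Subtype.ext
    exact Units.ext hz
  obtain ⟨g, hg, c, hc⟩ := H x hxS ⟨1, hx2⟩ hns
  set w : GL (Fin d ⊕ Fin d) F := g⁻¹ * x * g with hw
  have hwS : w ∈ spGL d F := mul_mem (mul_mem (inv_mem hg) hxS) hg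
  have hQw : ∀ v, Q ((w : Mt d F) *ᵥ v) = Q v := fun v => Q_eq_of_similar hd hQf (mem_spGL_iff.1 hwS) hc v
  refine ⟨LinearMap.range (((w : Mt d F) - 1).mulVecLin), ?_, ?_⟩
  · rintro _ ⟨v, rfl⟩
    have h2F : (2 : F) = 0 := two_eq_zero' F
    have hs : ((w : Mt d F) - 1).mulVecLin v = (w : Mt d F) *ᵥ v + v := by
      ext i
      simp only [mulVecLin_apply, sub_mulVec, one_mulVec, Pi.sub_apply, Pi.add_apply]
      linear_combination (-v i) * h2F
    rw [hs, Q_add, hQw, hQf]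
    have hE : (w : Mt d F) *ᵥ v = (g⁻¹ : GL (Fin d ⊕ Fin d) F) *ᵥ ((x : Mt d F) *ᵥ ((g : Mt d F) *ᵥ v)) := by
      rw [hw, Units.val_mul, Units.val_mul, ← mulVec_mulVec, ← mulVec_mulVec]
    have hgi : ∀ a, (g : Mt d F) *ᵥ (((g⁻¹ : GL (Fin d ⊕ Fin d) F) : Mt d F) *ᵥ a) = a := by
      intro a
      rw [mulVec_mulVec, ← Units.val_mul, mul_inv_cancel, Units.val_one, one_mulVec]
    have h5 : sympForm d F ((w : Mt d F) *ᵥ v) v = sympForm d F ((x : Mt d F) *ᵥ ((g : Mt d F) *ᵥ v)) ((g : Mt d F) *ᵥ v) := by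
      rw [← mem_spGL_iff.1 hg ((w : Mt d F) *ᵥ v) v, hE, hgi]
    have h6 : sympForm d F ((x : Mt d F) *ᵥ ((g : Mt d F) *ᵥ v)) ((g : Mt d F) *ᵥ v) = 0 := by
      rw [← hpf, polar_comm]
      exact h4 _
    rw [h5, h6]
    have := self_add_self (Q v)
    linear_combination this
  · have h5 : ((w : Mt d F) - 1) = ((g⁻¹ : GL (Fin d ⊕ Fin d) F) : Mt d F) * ((x : Mt d F) - 1) * (g : Mt d F) := by
      have e : ((g⁻¹ : GL (Fin d ⊕ Fin d) F) : Mt d F) * (g : Mt d F) = 1 := by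
        rw [← Units.val_mul, inv_mul_cancel, Units.val_one]
      rw [hw, Units.val_mul, Units.val_mul, mul_sub, sub_mul, mul_one, e]
    have h6 : ((w : Mt d F) - 1).rank = ((x : Mt d F) - 1).rank := by
      rw [h5, Matrix.rank_mul_eq_left_of_isUnit_det _ _ ((Matrix.isUnit_iff_isUnit_det _).1 g.isUnit),
        Matrix.rank_mul_eq_right_of_isUnit_det _ _ ((Matrix.isUnit_iff_isUnit_det _).1 (g⁻¹).isUnit)]
    have h7 : ((x : Mt d F) - 1).rank = d := by
      have := h3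
      unfold Cfsg.Agent.Lib.Classical.Witt.InvolCount.rk at this
      rw [this]
      omega
    exact h6.trans h7

/-- All involutions are conjugate into `O(Q)`, if `Q` has a Lagrangian or `d` is odd. -/
theorem elus_two (hQ : (polarBilin Q).Nondegenerate) (hQf : ∀ u v, polar (⇑Q) u v = sympForm d F u v) (hd : 1 ≤ d)
    (hT : (∃ U : Submodule F (Fin d ⊕ Fin d → F), (∀ w ∈ U, Q w = 0) ∧ finrank F U = d) ∨ Odd d)
    (x : GL (Fin d ⊕ Fin d) F) (hx : x ∈ spGL d F) (hz : ∃ z : F, ((x ^ 2 : GL (Fin d ⊕ Fin d) F) : Mt d F) = z • (1 : Mt d F))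
    (hns : ∀ z : F, (x : Mt d F) ≠ z • (1 : Mt d F)) :
    ∃ g ∈ spGL d F, g⁻¹ * x * g ∈ Cfsg.Geo.quadSimilarityGroup (⇑Q) := by
  classical
  obtain ⟨z, hz⟩ := hz
  have hxS := mem_spGL_iff.1 hx
  have hxS2 : (x ^ 2 : GL (Fin d ⊕ Fin d) F) ∈ spGL d F := pow_mem hx 2
  have hz1 := scalar_eq_one hd (mem_spGL_iff.1 hxS2) hz
  have hxx : (x : Mt d F) * x = 1 := by
    rw [hz1, one_smul, pow_two, Units.val_mul] at hz
    exact hz
  have hA : (x : Mt d F) ∈ symplecticGroup (Fin d) F := mem_symplecticGroup_iff_forall.2 hxS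
  let a : symplecticGroup (Fin d) F := ⟨x, hA⟩
  have hN := isSqZeroAdj_nMap hA hxx
  have hV : finrank F (Fin d ⊕ Fin d → F) = 2 * d := by
    simp [Module.finrank_fintype_fun_eq_card]
    ring
  have hs0 : 0 < ((x : Mt d F) - 1).rank := by
    rw [Nat.pos_iff_ne_zero]
    intro h0
    have h1 : ((x : Mt d F) - 1) = 0 := by
      have h2 : LinearMap.range (((x : Mt d F) - 1).mulVecLin) = ⊥ := Submodule.finrank_eq_zero.mp h0
      rw [LinearMap.range_eq_bot] at h2
      exact Matrix.ext_iff_mulVec.mpr (fun v => by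
        rw [Matrix.zero_mulVec]
        exact LinearMap.congr_fun h2 v)
    exact hns 1 (by rw [one_smul]; exact sub_eq_zero.1 h1)
  have hsd : ((x : Mt d F) - 1).rank ≤ d := by
    have := two_mul_finrank_range_le sympBilin_nondegenerate hN
    rw [hV, ← rank_eq] at this
    omega
  have hPs : (∀ v, sympForm d F v ((x : Mt d F) *ᵥ v) = 0) → Even ((x : Mt d F) - 1).rank := by
    intro h
    rw [rank_eq]
    refine even_of_alt_type sympBilin_nondegenerate sympBilin_isAlt hN fun y => ?_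
    rw [sympForm_nMap]
    exact h y
  obtain ⟨T, hT1, hT2, hT3, hT4⟩ := exists_T hd Q hQ _ hs0 hsd _ hPs hT
  let B : Mt d F := LinearMap.toMatrix' (T : (Fin d ⊕ Fin d → F) →ₗ[F] (Fin d ⊕ Fin d → F))
  have hB : ∀ v, B *ᵥ v = T v := fun v => LinearMap.toMatrix'_mulVec _ _
  have hBS : ∀ u v, sympForm d F (B *ᵥ u) (B *ᵥ v) = sympForm d F u v := by
    intro u v
    rw [hB, hB, ← hQf, ← hQf]
    simp only [polar, ← map_add, hT1]
  have hBm : B ∈ symplecticGroup (Fin d) F := mem_symplecticGroup_iff_forall.2 hBS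
  let b : symplecticGroup (Fin d) F := ⟨B, hBm⟩
  have hBB : B * B = 1 := by
    apply Matrix.toLin'.injective
    apply LinearMap.ext
    intro v
    rw [Matrix.toLin'_mul, LinearMap.comp_apply, Matrix.toLin'_apply, Matrix.toLin'_apply, hB, hB, hT2]
    simp
  have hr : (B - 1).rank = ((x : Mt d F) - 1).rank := by
    rw [← hT3]
    have : (B - 1).mulVecLin = (T : (Fin d ⊕ Fin d → F) →ₗ[F] (Fin d ⊕ Fin d → F)) - LinearMap.id := by
      apply LinearMap.ext
      intro v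
      simp [sub_mulVec, hB]
    unfold Matrix.rank
    rw [this]
  have hty : (∀ v, sympForm d F v (B *ᵥ v) = 0) ↔ (∀ v, sympForm d F v ((x : Mt d F) *ᵥ v) = 0) := by
    rw [← hT4]
    simp only [hB, hQf]
  obtain ⟨c, hc⟩ := isConj_iff.1 (isConj_of_type b a hBB hxx hr hty)
  refine ⟨glOfSp c, glOfSp_mem c, 1, fun v => ?_⟩
  have h1 : c⁻¹ * a * c = b := by
    rw [← hc]
    group
  have h2 : (((glOfSp c)⁻¹ * x * glOfSp c : GL (Fin d ⊕ Fin d) F) : Mt d F) = B := congrArg Subtype.val h1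
  rw [h2, hB, hT1, Units.val_one, one_mul]

end Cfsg.Agent.Lib.Classical.InvCent.SpOrth
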